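import Cfsg.Agent.Lib.H35.TCMSzA.Chk
set_option autoImplicit false
set_option maxRecDepth 100000
set_option linter.all false
namespace H35.TCMSzA
open H35.TC
section
variable {G : Type} [Group G] {g : Lt → G} {H : Subgroup G}
/-- hypotheses -/
abbrev Hy (g : Lt → G) (H : Subgroup G) : Prop := (∀ x, g (inv x) = (g x)⁻¹) ∧ (∀ r ∈ rels, (r.map g).prod = 1) ∧ ∀ r ∈ subs, (r.map g).prod ∈ H
theorem hM0 : 0 < M := by decide
theorem hat {r W : List Lt} {x : Lt} (hr : (r.map g).prod = 1) (k : ℕ) (h : r.drop k ++ r.take k = W ++ [x]) (z : G ⧸ H) : fa g x (act (fa g) W z) = z := hole_at hr k h z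
theorem pat (hy : Hy g H) {r W1 W2 : List Lt} (hr : (r.map g).prod = 1) (k : ℕ) (h : r.drop k ++ r.take k = W1 ++ (W2.map inv).reverse) (z : G ⧸ H) : act (fa g) W1 z = act (fa g) W2 z := pair_at hy.1 hr k h z
theorem ivt (hy : Hy g H) (x x' : Lt) (hx : inv x = x') (z : G ⧸ H) : fa g x (fa g x' z) = z := inv_rel hy.1 x x' hx z
theorem rf_0 (hy : Hy g H) : (([.z, .T, .zi, .Ti] : List Lt).map g).prod = 1 := hy.2.1 _ (by decide +kernel)
theorem rb_0 (hy : Hy g H) : (([.T, .z, .Ti, .zi] : List Lt).map g).prod = 1 := inv_at hy.1 (rf_0 hy)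
theorem rf_1 (hy : Hy g H) : (([.z, .t, .zi, .ti] : List Lt).map g).prod = 1 := hy.2.1 _ (by decide +kernel)
theorem rb_1 (hy : Hy g H) : (([.t, .z, .ti, .zi] : List Lt).map g).prod = 1 := inv_at hy.1 (rf_1 hy)
theorem rf_2 (hy : Hy g H) : (([.z, .d, .zi, .di] : List Lt).map g).prod = 1 := hy.2.1 _ (by decide +kernel)
theorem rb_2 (hy : Hy g H) : (([.d, .z, .di, .zi] : List Lt).map g).prod = 1 := inv_at hy.1 (rf_2 hy)
theorem rf_3 (hy : Hy g H) : (([.z, .c, .zi, .ci] : List Lt).map g).prod = 1 := hy.2.1 _ (by decide +kernel)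
theorem rb_3 (hy : Hy g H) : (([.c, .z, .ci, .zi] : List Lt).map g).prod = 1 := inv_at hy.1 (rf_3 hy)
theorem rf_4 (hy : Hy g H) : (([.z, .b, .zi, .bi] : List Lt).map g).prod = 1 := hy.2.1 _ (by decide +kernel)
theorem rb_4 (hy : Hy g H) : (([.b, .z, .bi, .zi] : List Lt).map g).prod = 1 := inv_at hy.1 (rf_4 hy)
theorem rf_5 (hy : Hy g H) : (([.z, .a, .zi, .ai] : List Lt).map g).prod = 1 := hy.2.1 _ (by decide +kernel)
theorem rb_5 (hy : Hy g H) : (([.a, .z, .ai, .zi] : List Lt).map g).prod = 1 := inv_at hy.1 (rf_5 hy)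
theorem rf_6 (hy : Hy g H) : (([.z, .z, .z, .z] : List Lt).map g).prod = 1 := hy.2.1 _ (by decide +kernel)
theorem rb_6 (hy : Hy g H) : (([.zi, .zi, .zi, .zi] : List Lt).map g).prod = 1 := inv_at hy.1 (rf_6 hy)
theorem rf_7 (hy : Hy g H) : (([.T, .ti, .T, .t, .Ti, .t] : List Lt).map g).prod = 1 := hy.2.1 _ (by decide +kernel)
theorem rb_7 (hy : Hy g H) : (([.ti, .T, .ti, .Ti, .t, .Ti] : List Lt).map g).prod = 1 := inv_at hy.1 (rf_7 hy)
theorem rf_8 (hy : Hy g H) : (([.a, .b, .ai, .b, .a, .bi] : List Lt).map g).prod = 1 := hy.2.1 _ (by decide +kernel)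
theorem rb_8 (hy : Hy g H) : (([.b, .ai, .bi, .a, .bi, .ai] : List Lt).map g).prod = 1 := inv_at hy.1 (rf_8 hy)
theorem rf_9 (hy : Hy g H) : (([.a, .c, .a, .ci, .ai, .ci] : List Lt).map g).prod = 1 := hy.2.1 _ (by decide +kernel)
theorem rb_9 (hy : Hy g H) : (([.c, .a, .c, .ai, .ci, .ai] : List Lt).map g).prod = 1 := inv_at hy.1 (rf_9 hy)
theorem rf_10 (hy : Hy g H) : (([.ai, .c, .Ti, .ci, .a, .T] : List Lt).map g).prod = 1 := hy.2.1 _ (by decide +kernel)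
theorem rb_10 (hy : Hy g H) : (([.Ti, .ai, .c, .T, .ci, .a] : List Lt).map g).prod = 1 := inv_at hy.1 (rf_10 hy)
theorem rf_11 (hy : Hy g H) : (([.t, .T, .d, .Ti, .ti, .d] : List Lt).map g).prod = 1 := hy.2.1 _ (by decide +kernel)
theorem rb_11 (hy : Hy g H) : (([.di, .t, .T, .di, .Ti, .ti] : List Lt).map g).prod = 1 := inv_at hy.1 (rf_11 hy)
theorem rf_12 (hy : Hy g H) : (([.d, .t, .a, .ti, .di, .a] : List Lt).map g).prod = 1 := hy.2.1 _ (by decide +kernel)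
theorem rb_12 (hy : Hy g H) : (([.ai, .d, .t, .ai, .ti, .di] : List Lt).map g).prod = 1 := inv_at hy.1 (rf_12 hy)
theorem rf_13 (hy : Hy g H) : (([.d, .ai, .d, .a, .di, .a] : List Lt).map g).prod = 1 := hy.2.1 _ (by decide +kernel)
theorem rb_13 (hy : Hy g H) : (([.ai, .d, .ai, .di, .a, .di] : List Lt).map g).prod = 1 := inv_at hy.1 (rf_13 hy)
theorem rf_14 (hy : Hy g H) : (([.c, .d, .c, .di, .ci, .di] : List Lt).map g).prod = 1 := hy.2.1 _ (by decide +kernel)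
theorem rb_14 (hy : Hy g H) : (([.d, .c, .d, .ci, .di, .ci] : List Lt).map g).prod = 1 := inv_at hy.1 (rf_14 hy)
theorem rf_15 (hy : Hy g H) : (([.bi, .t, .di, .ti, .b, .t] : List Lt).map g).prod = 1 := hy.2.1 _ (by decide +kernel)
theorem rb_15 (hy : Hy g H) : (([.ti, .bi, .t, .d, .ti, .b] : List Lt).map g).prod = 1 := inv_at hy.1 (rf_15 hy)
theorem rf_16 (hy : Hy g H) : (([.bi, .t, .b, .ti, .b, .d] : List Lt).map g).prod = 1 := hy.2.1 _ (by decide +kernel)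
theorem rb_16 (hy : Hy g H) : (([.di, .bi, .t, .bi, .ti, .b] : List Lt).map g).prod = 1 := inv_at hy.1 (rf_16 hy)
theorem rf_17 (hy : Hy g H) : (([.b, .ci, .t, .c, .bi, .ti] : List Lt).map g).prod = 1 := hy.2.1 _ (by decide +kernel)
theorem rb_17 (hy : Hy g H) : (([.t, .b, .ci, .ti, .c, .bi] : List Lt).map g).prod = 1 := inv_at hy.1 (rf_17 hy)
theorem rf_18 (hy : Hy g H) : (([.b, .c, .T, .ci, .bi, .Ti] : List Lt).map g).prod = 1 := hy.2.1 _ (by decide +kernel)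
theorem rb_18 (hy : Hy g H) : (([.T, .b, .c, .Ti, .ci, .bi] : List Lt).map g).prod = 1 := inv_at hy.1 (rf_18 hy)
theorem rf_19 (hy : Hy g H) : (([.ai, .ci, .Ti, .c, .a, .T] : List Lt).map g).prod = 1 := hy.2.1 _ (by decide +kernel)
theorem rb_19 (hy : Hy g H) : (([.Ti, .ai, .ci, .T, .c, .a] : List Lt).map g).prod = 1 := inv_at hy.1 (rf_19 hy)
theorem rf_20 (hy : Hy g H) : (([.T, .ti, .b, .a, .b, .c, .t, .ai, .c, .d, .b, .T, .ti, .b, .a, .b, .c, .t, .ai, .c, .d, .b, .T, .ti, .b, .a, .b, .c, .t, .ai, .c, .d, .b, .T, .ti, .b, .a, .b, .c, .t, .ai, .c, .d, .b, .zi] : List Lt).map g).prod = 1 := hy.2.1 _ (by decide +kernel)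
theorem rb_20 (hy : Hy g H) : (([.z, .bi, .di, .ci, .a, .ti, .ci, .bi, .ai, .bi, .t, .Ti, .bi, .di, .ci, .a, .ti, .ci, .bi, .ai, .bi, .t, .Ti, .bi, .di, .ci, .a, .ti, .ci, .bi, .ai, .bi, .t, .Ti, .bi, .di, .ci, .a, .ti, .ci, .bi, .ai, .bi, .t, .Ti] : List Lt).map g).prod = 1 := inv_at hy.1 (rf_20 hy)
theorem rf_21 (hy : Hy g H) : (([.a, .ai] : List Lt).map g).prod = 1 := hy.2.1 _ (by decide +kernel)
theorem rb_21 (hy : Hy g H) : (([.a, .ai] : List Lt).map g).prod = 1 := inv_at hy.1 (rf_21 hy)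
theorem rf_22 (hy : Hy g H) : (([.ai, .a] : List Lt).map g).prod = 1 := hy.2.1 _ (by decide +kernel)
theorem rb_22 (hy : Hy g H) : (([.ai, .a] : List Lt).map g).prod = 1 := inv_at hy.1 (rf_22 hy)
theorem rf_23 (hy : Hy g H) : (([.b, .bi] : List Lt).map g).prod = 1 := hy.2.1 _ (by decide +kernel)
theorem rb_23 (hy : Hy g H) : (([.b, .bi] : List Lt).map g).prod = 1 := inv_at hy.1 (rf_23 hy)
theorem rf_24 (hy : Hy g H) : (([.bi, .b] : List Lt).map g).prod = 1 := hy.2.1 _ (by decide +kernel)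
theorem rb_24 (hy : Hy g H) : (([.bi, .b] : List Lt).map g).prod = 1 := inv_at hy.1 (rf_24 hy)
theorem rf_25 (hy : Hy g H) : (([.c, .ci] : List Lt).map g).prod = 1 := hy.2.1 _ (by decide +kernel)
theorem rb_25 (hy : Hy g H) : (([.c, .ci] : List Lt).map g).prod = 1 := inv_at hy.1 (rf_25 hy)
theorem rf_26 (hy : Hy g H) : (([.ci, .c] : List Lt).map g).prod = 1 := hy.2.1 _ (by decide +kernel)
theorem rb_26 (hy : Hy g H) : (([.ci, .c] : List Lt).map g).prod = 1 := inv_at hy.1 (rf_26 hy)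
theorem rf_27 (hy : Hy g H) : (([.d, .di] : List Lt).map g).prod = 1 := hy.2.1 _ (by decide +kernel)
theorem rb_27 (hy : Hy g H) : (([.d, .di] : List Lt).map g).prod = 1 := inv_at hy.1 (rf_27 hy)
theorem rf_28 (hy : Hy g H) : (([.di, .d] : List Lt).map g).prod = 1 := hy.2.1 _ (by decide +kernel)
theorem rb_28 (hy : Hy g H) : (([.di, .d] : List Lt).map g).prod = 1 := inv_at hy.1 (rf_28 hy)
theorem rf_29 (hy : Hy g H) : (([.t, .ti] : List Lt).map g).prod = 1 := hy.2.1 _ (by decide +kernel)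
theorem rb_29 (hy : Hy g H) : (([.t, .ti] : List Lt).map g).prod = 1 := inv_at hy.1 (rf_29 hy)
theorem rf_30 (hy : Hy g H) : (([.ti, .t] : List Lt).map g).prod = 1 := hy.2.1 _ (by decide +kernel)
theorem rb_30 (hy : Hy g H) : (([.ti, .t] : List Lt).map g).prod = 1 := inv_at hy.1 (rf_30 hy)
theorem rf_31 (hy : Hy g H) : (([.T, .Ti] : List Lt).map g).prod = 1 := hy.2.1 _ (by decide +kernel)
theorem rb_31 (hy : Hy g H) : (([.T, .Ti] : List Lt).map g).prod = 1 := inv_at hy.1 (rf_31 hy)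
theorem rf_32 (hy : Hy g H) : (([.Ti, .T] : List Lt).map g).prod = 1 := hy.2.1 _ (by decide +kernel)
theorem rb_32 (hy : Hy g H) : (([.Ti, .T] : List Lt).map g).prod = 1 := inv_at hy.1 (rf_32 hy)
theorem rf_33 (hy : Hy g H) : (([.z, .zi] : List Lt).map g).prod = 1 := hy.2.1 _ (by decide +kernel)
theorem rb_33 (hy : Hy g H) : (([.z, .zi] : List Lt).map g).prod = 1 := inv_at hy.1 (rf_33 hy)
theorem rf_34 (hy : Hy g H) : (([.zi, .z] : List Lt).map g).prod = 1 := hy.2.1 _ (by decide +kernel)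
theorem rb_34 (hy : Hy g H) : (([.zi, .z] : List Lt).map g).prod = 1 := inv_at hy.1 (rf_34 hy)
/-- the points of the nodes -/
noncomputable def cP (g : Lt → G) (H : Subgroup G) : ℕ → G ⧸ H := cc (fa g) lt P ((1 : G) : G ⧸ H)
/-- soundness of an entry -/
abbrev Gd (g : Lt → G) (H : Subgroup G) (x : Lt) (u : ℕ) : Prop := Good (fa g) T MG M (cP g H) x u
/-- soundness of a merge -/
abbrev GdM (g : Lt → G) (H : Subgroup G) (u : ℕ) : Prop := GoodM (fa g) T MG M (cP g H) u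
theorem dp_a_0_s (hy : Hy g H)
    (j u : ℕ) (hu : u < M) (h : dp_a_0 j u = true) : Gd g H Lt.a u := by
  unfold dp_a_0 at h
  rcases brec_true h with h | h
  · exact lF_good (T := T) (x := Lt.a) hM0 [Lt.di, Lt.a, Lt.d, Lt.ai, Lt.d] (hat (rf_13 hy) 4 rfl) h
  · exact lS_good (T := T) (x := Lt.a) hM0 hu [Lt.ai] (hat (rf_21 hy) 1 rfl) h
theorem dp_a_1_s (hy : Hy g H)
    (j u : ℕ) (hu : u < M) (h : dp_a_1 j u = true) : Gd g H Lt.a u := by
  unfold dp_a_1 at h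
  rcases brec_true h with h | h
  · exact lF_good (T := T) (x := Lt.a) hM0 [Lt.ti, Lt.di, Lt.a, Lt.d, Lt.t] (hat (rf_12 hy) 3 rfl) h
  · exact dp_a_0_s hy j u hu h
theorem dp_a_2_s (hy : Hy g H)
    (j u : ℕ) (hu : u < M) (h : dp_a_2 j u = true) : Gd g H Lt.a u := by
  unfold dp_a_2 at h
  rcases brec_true h with h | h
  · exact lF_good (T := T) (x := Lt.a) hM0 [Lt.b, Lt.ai, Lt.b, Lt.a, Lt.bi] (hat (rf_8 hy) 1 rfl) h
  · exact lF_good (T := T) (x := Lt.a) hM0 [Lt.ci, Lt.ai, Lt.ci, Lt.a, Lt.c] (hat (rf_9 hy) 3 rfl) h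
theorem dp_a_3_s (hy : Hy g H)
    (j u : ℕ) (hu : u < M) (h : dp_a_3 j u = true) : Gd g H Lt.a u := by
  unfold dp_a_3 at h
  rcases brec_true h with h | h
  · exact lF_good (T := T) (x := Lt.a) hM0 [Lt.c, Lt.a, Lt.ci, Lt.ai, Lt.ci] (hat (rf_9 hy) 1 rfl) h
  · exact dp_a_2_s hy j u hu h
theorem dp_a_4_s (hy : Hy g H)
    (j u : ℕ) (hu : u < M) (h : dp_a_4 j u = true) : Gd g H Lt.a u := by
  unfold dp_a_4 at h
  rcases brec_true h with h | h
  · exact lF_good (T := T) (x := Lt.a) hM0 [Lt.T, Lt.ai, Lt.c, Lt.Ti, Lt.ci] (hat (rf_10 hy) 5 rfl) h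
  · exact lF_good (T := T) (x := Lt.a) hM0 [Lt.bi, Lt.a, Lt.b, Lt.ai, Lt.b] (hat (rf_8 hy) 5 rfl) h
theorem dp_a_5_s (hy : Hy g H)
    (j u : ℕ) (hu : u < M) (h : dp_a_5 j u = true) : Gd g H Lt.a u := by
  unfold dp_a_5 at h
  rcases brec_true h with h | h
  · exact lF_good (T := T) (x := Lt.a) hM0 [Lt.d, Lt.t, Lt.a, Lt.ti, Lt.di] (hat (rf_12 hy) 0 rfl) h
  · exact dp_a_4_s hy j u hu h
theorem dp_a_6_s (hy : Hy g H)
    (j u : ℕ) (hu : u < M) (h : dp_a_6 j u = true) : Gd g H Lt.a u := by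
  unfold dp_a_6 at h
  rcases brec_true h with h | h
  · exact dp_a_3_s hy j u hu h
  · exact dp_a_5_s hy j u hu h
theorem dp_a_7_s (hy : Hy g H)
    (j u : ℕ) (hu : u < M) (h : dp_a_7 j u = true) : Gd g H Lt.a u := by
  unfold dp_a_7 at h
  rcases brec_true h with h | h
  · exact lF_good (T := T) (x := Lt.a) hM0 [Lt.bi, Lt.ai, Lt.b, Lt.ai, Lt.bi] (hat (rb_8 hy) 4 rfl) h
  · exact lF_good (T := T) (x := Lt.a) hM0 [Lt.di, Lt.ai, Lt.d, Lt.ai, Lt.di] (hat (rb_13 hy) 5 rfl) h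
theorem dp_a_8_s (hy : Hy g H)
    (j u : ℕ) (hu : u < M) (h : dp_a_8 j u = true) : Gd g H Lt.a u := by
  unfold dp_a_8 at h
  rcases brec_true h with h | h
  · exact lF_good (T := T) (x := Lt.a) hM0 [Lt.d, Lt.ai, Lt.d, Lt.a, Lt.di] (hat (rf_13 hy) 0 rfl) h
  · exact lF_good (T := T) (x := Lt.a) hM0 [Lt.c, Lt.ai, Lt.ci, Lt.ai, Lt.c] (hat (rb_9 hy) 2 rfl) h
theorem dp_a_9_s (hy : Hy g H)
    (j u : ℕ) (hu : u < M) (h : dp_a_9 j u = true) : Gd g H Lt.a u := by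
  unfold dp_a_9 at h
  rcases brec_true h with h | h
  · exact dp_a_7_s hy j u hu h
  · exact dp_a_8_s hy j u hu h
theorem dp_a_10_s (hy : Hy g H)
    (j u : ℕ) (hu : u < M) (h : dp_a_10 j u = true) : Gd g H Lt.a u := by
  unfold dp_a_10 at h
  rcases brec_true h with h | h
  · exact lF_good (T := T) (x := Lt.a) hM0 [Lt.T, Lt.ai, Lt.ci, Lt.Ti, Lt.c] (hat (rf_19 hy) 5 rfl) h
  · exact lF_good (T := T) (x := Lt.a) hM0 [Lt.Ti, Lt.ai, Lt.ci, Lt.T, Lt.c] (hat (rb_19 hy) 0 rfl) h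
theorem dp_a_11_s (hy : Hy g H)
    (j u : ℕ) (hu : u < M) (h : dp_a_11 j u = true) : Gd g H Lt.a u := by
  unfold dp_a_11 at h
  rcases brec_true h with h | h
  · exact lF_good (T := T) (x := Lt.a) hM0 [Lt.Ti, Lt.ai, Lt.c, Lt.T, Lt.ci] (hat (rb_10 hy) 0 rfl) h
  · exact dp_a_10_s hy j u hu h
theorem dp_a_12_s (hy : Hy g H)
    (j u : ℕ) (hu : u < M) (h : dp_a_12 j u = true) : Gd g H Lt.a u := by
  unfold dp_a_12 at h
  rcases brec_true h with h | h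
  · exact lS_good (T := T) (x := Lt.a) hM0 hu [Lt.c, Lt.a, Lt.ci, Lt.ai, Lt.ci] (hat (rf_9 hy) 1 rfl) h
  · exact lS_good (T := T) (x := Lt.a) hM0 hu [Lt.bi, Lt.ai, Lt.b, Lt.ai, Lt.bi] (hat (rb_8 hy) 4 rfl) h
theorem dp_a_13_s (hy : Hy g H)
    (j u : ℕ) (hu : u < M) (h : dp_a_13 j u = true) : Gd g H Lt.a u := by
  unfold dp_a_13 at h
  rcases brec_true h with h | h
  · exact lS_good (T := T) (x := Lt.a) hM0 hu [Lt.c, Lt.ai, Lt.ci, Lt.ai, Lt.c] (hat (rb_9 hy) 2 rfl) h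
  · exact lS_good (T := T) (x := Lt.a) hM0 hu [Lt.b, Lt.ai, Lt.b, Lt.a, Lt.bi] (hat (rf_8 hy) 1 rfl) h
theorem dp_a_14_s (hy : Hy g H)
    (j u : ℕ) (hu : u < M) (h : dp_a_14 j u = true) : Gd g H Lt.a u := by
  unfold dp_a_14 at h
  rcases brec_true h with h | h
  · exact lS_good (T := T) (x := Lt.a) hM0 hu [Lt.d, Lt.ai, Lt.d, Lt.a, Lt.di] (hat (rf_13 hy) 0 rfl) h
  · exact dp_a_13_s hy j u hu h
theorem dp_a_15_s (hy : Hy g H)
    (j u : ℕ) (hu : u < M) (h : dp_a_15 j u = true) : Gd g H Lt.a u := by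
  unfold dp_a_15 at h
  rcases brec_true h with h | h
  · exact dp_a_12_s hy j u hu h
  · exact dp_a_14_s hy j u hu h
theorem dp_a_16_s (hy : Hy g H)
    (j u : ℕ) (hu : u < M) (h : dp_a_16 j u = true) : Gd g H Lt.a u := by
  unfold dp_a_16 at h
  rcases brec_true h with h | h
  · exact lS_good (T := T) (x := Lt.a) hM0 hu [Lt.ci, Lt.ai, Lt.ci, Lt.a, Lt.c] (hat (rf_9 hy) 3 rfl) h
  · exact lS_good (T := T) (x := Lt.a) hM0 hu [Lt.di, Lt.a, Lt.d, Lt.ai, Lt.d] (hat (rf_13 hy) 4 rfl) h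
theorem dp_a_17_s (hy : Hy g H)
    (j u : ℕ) (hu : u < M) (h : dp_a_17 j u = true) : Gd g H Lt.a u := by
  unfold dp_a_17 at h
  rcases brec_true h with h | h
  · exact lS_good (T := T) (x := Lt.a) hM0 hu [Lt.zi, Lt.ai, Lt.z] (hat (rf_5 hy) 2 rfl) h
  · exact lS_good (T := T) (x := Lt.a) hM0 hu [Lt.ti, Lt.di, Lt.a, Lt.d, Lt.t] (hat (rf_12 hy) 3 rfl) h
theorem dp_a_18_s (hy : Hy g H)
    (j u : ℕ) (hu : u < M) (h : dp_a_18 j u = true) : Gd g H Lt.a u := by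
  unfold dp_a_18 at h
  rcases brec_true h with h | h
  · exact dp_a_16_s hy j u hu h
  · exact dp_a_17_s hy j u hu h
theorem dp_a_19_s (hy : Hy g H)
    (j u : ℕ) (hu : u < M) (h : dp_a_19 j u = true) : Gd g H Lt.a u := by
  unfold dp_a_19 at h
  rcases brec_true h with h | h
  · exact lS_good (T := T) (x := Lt.a) hM0 hu [Lt.T, Lt.ai, Lt.c, Lt.Ti, Lt.ci] (hat (rf_10 hy) 5 rfl) h
  · exact lS_good (T := T) (x := Lt.a) hM0 hu [Lt.bi, Lt.a, Lt.b, Lt.ai, Lt.b] (hat (rf_8 hy) 5 rfl) h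
theorem dp_a_20_s (hy : Hy g H)
    (j u : ℕ) (hu : u < M) (h : dp_a_20 j u = true) : Gd g H Lt.a u := by
  unfold dp_a_20 at h
  rcases brec_true h with h | h
  · exact lS_good (T := T) (x := Lt.a) hM0 hu [Lt.di, Lt.ai, Lt.d, Lt.ai, Lt.di] (hat (rb_13 hy) 5 rfl) h
  · exact dp_a_19_s hy j u hu h
theorem dp_a_21_s (hy : Hy g H)
    (j u : ℕ) (hu : u < M) (h : dp_a_21 j u = true) : Gd g H Lt.a u := by
  unfold dp_a_21 at h
  rcases brec_true h with h | h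
  · exact lS_good (T := T) (x := Lt.a) hM0 hu [Lt.z, Lt.ai, Lt.zi] (hat (rb_5 hy) 1 rfl) h
  · exact lS_good (T := T) (x := Lt.a) hM0 hu [Lt.Ti, Lt.ai, Lt.ci, Lt.T, Lt.c] (hat (rb_19 hy) 0 rfl) h
theorem dp_a_22_s (hy : Hy g H)
    (j u : ℕ) (hu : u < M) (h : dp_a_22 j u = true) : Gd g H Lt.a u := by
  unfold dp_a_22 at h
  rcases brec_true h with h | h
  · exact lH_good (T := T) (x := Lt.a) hM0 [] [] (by rw [show cP g H 0 = _ from cc_zero]; exact sub_rel hy.1 (hy.2.2 _ (by decide))) h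
  · exact lS_good (T := T) (x := Lt.a) hM0 hu [Lt.T, Lt.ai, Lt.ci, Lt.Ti, Lt.c] (hat (rf_19 hy) 5 rfl) h
theorem dp_a_23_s (hy : Hy g H)
    (j u : ℕ) (hu : u < M) (h : dp_a_23 j u = true) : Gd g H Lt.a u := by
  unfold dp_a_23 at h
  rcases brec_true h with h | h
  · exact lS_good (T := T) (x := Lt.a) hM0 hu [Lt.d, Lt.t, Lt.a, Lt.ti, Lt.di] (hat (rf_12 hy) 0 rfl) h
  · exact dp_a_22_s hy j u hu h
theorem dp_a_24_s (hy : Hy g H)
    (j u : ℕ) (hu : u < M) (h : dp_a_24 j u = true) : Gd g H Lt.a u := by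
  unfold dp_a_24 at h
  rcases brec_true h with h | h
  · exact lS_good (T := T) (x := Lt.a) hM0 hu [Lt.Ti, Lt.ai, Lt.c, Lt.T, Lt.ci] (hat (rb_10 hy) 0 rfl) h
  · exact dp_a_23_s hy j u hu h
theorem dp_a_25_s (hy : Hy g H)
    (j u : ℕ) (hu : u < M) (h : dp_a_25 j u = true) : Gd g H Lt.a u := by
  unfold dp_a_25 at h
  rcases brec_true h with h | h
  · exact dp_a_21_s hy j u hu h
  · exact dp_a_24_s hy j u hu h
theorem dp_a_26_s (hy : Hy g H)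
    (j u : ℕ) (hu : u < M) (h : dp_a_26 j u = true) : Gd g H Lt.a u := by
  unfold dp_a_26 at h
  rcases brec_true h with h | h
  · exact dp_a_20_s hy j u hu h
  · exact dp_a_25_s hy j u hu h
theorem dp_a_27_s (hy : Hy g H)
    (j u : ℕ) (hu : u < M) (h : dp_a_27 j u = true) : Gd g H Lt.a u := by
  unfold dp_a_27 at h
  rcases brec_true h with h | h
  · exact dp_a_18_s hy j u hu h
  · exact dp_a_26_s hy j u hu h
theorem dp_a_28_s (hy : Hy g H)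
    (j u : ℕ) (hu : u < M) (h : dp_a_28 j u = true) : Gd g H Lt.a u := by
  unfold dp_a_28 at h
  rcases brec_true h with h | h
  · exact dp_a_15_s hy j u hu h
  · exact dp_a_27_s hy j u hu h
theorem dp_a_29_s (hy : Hy g H)
    (j u : ℕ) (hu : u < M) (h : dp_a_29 j u = true) : Gd g H Lt.a u := by
  unfold dp_a_29 at h
  rcases brec_true h with h | h
  · exact dp_a_11_s hy j u hu h
  · exact dp_a_28_s hy j u hu h
theorem dp_a_30_s (hy : Hy g H)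
    (j u : ℕ) (hu : u < M) (h : dp_a_30 j u = true) : Gd g H Lt.a u := by
  unfold dp_a_30 at h
  rcases brec_true h with h | h
  · exact dp_a_9_s hy j u hu h
  · exact dp_a_29_s hy j u hu h
theorem dp_a_31_s (hy : Hy g H)
    (j u : ℕ) (hu : u < M) (h : dp_a_31 j u = true) : Gd g H Lt.a u := by
  unfold dp_a_31 at h
  rcases brec_true h with h | h
  · exact dp_a_6_s hy j u hu h
  · exact dp_a_30_s hy j u hu h
theorem dp_a_32_s (hy : Hy g H)
    (j u : ℕ) (hu : u < M) (h : dp_a_32 j u = true) : Gd g H Lt.a u := by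
  unfold dp_a_32 at h
  rcases brec_true h with h | h
  · rcases brec_true h with h | h
    · exact lPar_good (T := T) (x := Lt.a) (x' := Lt.ai) (by decide) rfl (ivt hy _ _ rfl) h
    · rcases brec_true h with h | h
      · exact lDef_good (T := T) (x := Lt.a) (by decide) rfl h
      · exact dp_a_1_s hy j u hu h
  · exact dp_a_31_s hy j u hu h
theorem snd_a (hy : Hy g H)
    (j u : ℕ) (hu : u < M) (h : disp_a j u = true) : Gd g H Lt.a u := by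
  unfold disp_a at h
  rcases brec_true h with h | h
  · rcases brec_true h with h | h
    · exact lF1_good (T := T) (x := Lt.a) hM0 .ai (hat (rf_21 hy) 1 rfl) h
    · rcases brec_true h with h | h
      · exact lF3_good (T := T) (x := Lt.a) hM0 .zi .ai .z (hat (rf_5 hy) 2 rfl) h
      · exact lF3_good (T := T) (x := Lt.a) hM0 .z .ai .zi (hat (rb_5 hy) 1 rfl) h
  · exact dp_a_32_s hy j u hu h
theorem snc_a (hy : Hy g H)
    (j u : ℕ) (hu : u < M) (h : chk_a j u = true) : (T Lt.a u < A ∧ Gd g H Lt.a u) ∨ (A ≤ T Lt.a u ∧ MG u < A) := by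
  unfold chk_a at h
  cases hb : Nat.ble A (T_a u) with
  | true => rw [hb] at h; exact Or.inr ⟨le_of_ble hb, le_of_ble h⟩
  | false => rw [hb] at h; exact Or.inl ⟨lt_of_ble_false hb, snd_a hy j u hu h⟩
theorem dp_ai_0_s (hy : Hy g H)
    (j u : ℕ) (hu : u < M) (h : dp_ai_0 j u = true) : Gd g H Lt.ai u := by
  unfold dp_ai_0 at h
  rcases brec_true h with h | h
  · exact lPar_good (T := T) (x := Lt.ai) (x' := Lt.a) (by decide) rfl (ivt hy _ _ rfl) h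
  · exact lF_good (T := T) (x := Lt.ai) hM0 [Lt.ti, Lt.di, Lt.ai, Lt.d, Lt.t] (hat (rb_12 hy) 4 rfl) h
theorem dp_ai_1_s (hy : Hy g H)
    (j u : ℕ) (hu : u < M) (h : dp_ai_1 j u = true) : Gd g H Lt.ai u := by
  unfold dp_ai_1 at h
  rcases brec_true h with h | h
  · exact lF_good (T := T) (x := Lt.ai) hM0 [Lt.d, Lt.ai, Lt.di, Lt.a, Lt.di] (hat (rb_13 hy) 1 rfl) h
  · exact lF_good (T := T) (x := Lt.ai) hM0 [Lt.ci, Lt.ai, Lt.c, Lt.a, Lt.c] (hat (rb_9 hy) 4 rfl) h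
theorem dp_ai_2_s (hy : Hy g H)
    (j u : ℕ) (hu : u < M) (h : dp_ai_2 j u = true) : Gd g H Lt.ai u := by
  unfold dp_ai_2 at h
  rcases brec_true h with h | h
  · exact lF_good (T := T) (x := Lt.ai) hM0 [Lt.c, Lt.a, Lt.c, Lt.ai, Lt.ci] (hat (rb_9 hy) 0 rfl) h
  · exact dp_ai_1_s hy j u hu h
theorem dp_ai_3_s (hy : Hy g H)
    (j u : ℕ) (hu : u < M) (h : dp_ai_3 j u = true) : Gd g H Lt.ai u := by
  unfold dp_ai_3 at h
  rcases brec_true h with h | h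
  · exact lS_good (T := T) (x := Lt.ai) hM0 hu [Lt.a] (hat (rf_21 hy) 0 rfl) h
  · exact lF_good (T := T) (x := Lt.ai) hM0 [Lt.ci, Lt.a, Lt.c, Lt.a, Lt.ci] (hat (rf_9 hy) 5 rfl) h
theorem dp_ai_4_s (hy : Hy g H)
    (j u : ℕ) (hu : u < M) (h : dp_ai_4 j u = true) : Gd g H Lt.ai u := by
  unfold dp_ai_4 at h
  rcases brec_true h with h | h
  · exact lF_good (T := T) (x := Lt.ai) hM0 [Lt.b, Lt.ai, Lt.bi, Lt.a, Lt.bi] (hat (rb_8 hy) 0 rfl) h
  · exact dp_ai_3_s hy j u hu h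
theorem dp_ai_5_s (hy : Hy g H)
    (j u : ℕ) (hu : u < M) (h : dp_ai_5 j u = true) : Gd g H Lt.ai u := by
  unfold dp_ai_5 at h
  rcases brec_true h with h | h
  · exact lF_good (T := T) (x := Lt.ai) hM0 [Lt.di, Lt.a, Lt.di, Lt.ai, Lt.d] (hat (rb_13 hy) 3 rfl) h
  · exact lF_good (T := T) (x := Lt.ai) hM0 [Lt.c, Lt.T, Lt.ci, Lt.a, Lt.Ti] (hat (rb_10 hy) 2 rfl) h
theorem dp_ai_6_s (hy : Hy g H)
    (j u : ℕ) (hu : u < M) (h : dp_ai_6 j u = true) : Gd g H Lt.ai u := by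
  unfold dp_ai_6 at h
  rcases brec_true h with h | h
  · exact lF_good (T := T) (x := Lt.ai) hM0 [Lt.d, Lt.a, Lt.di, Lt.a, Lt.d] (hat (rf_13 hy) 2 rfl) h
  · exact lF_good (T := T) (x := Lt.ai) hM0 [Lt.c, Lt.Ti, Lt.ci, Lt.a, Lt.T] (hat (rf_10 hy) 1 rfl) h
theorem dp_ai_7_s (hy : Hy g H)
    (j u : ℕ) (hu : u < M) (h : dp_ai_7 j u = true) : Gd g H Lt.ai u := by
  unfold dp_ai_7 at h
  rcases brec_true h with h | h
  · exact lF_good (T := T) (x := Lt.ai) hM0 [Lt.bi, Lt.a, Lt.bi, Lt.ai, Lt.b] (hat (rb_8 hy) 2 rfl) h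
  · exact dp_ai_6_s hy j u hu h
theorem dp_ai_8_s (hy : Hy g H)
    (j u : ℕ) (hu : u < M) (h : dp_ai_8 j u = true) : Gd g H Lt.ai u := by
  unfold dp_ai_8 at h
  rcases brec_true h with h | h
  · exact dp_ai_5_s hy j u hu h
  · exact dp_ai_7_s hy j u hu h
theorem dp_ai_9_s (hy : Hy g H)
    (j u : ℕ) (hu : u < M) (h : dp_ai_9 j u = true) : Gd g H Lt.ai u := by
  unfold dp_ai_9 at h
  rcases brec_true h with h | h
  · exact lF_good (T := T) (x := Lt.ai) hM0 [Lt.b, Lt.a, Lt.bi, Lt.a, Lt.b] (hat (rf_8 hy) 3 rfl) h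
  · exact lF_good (T := T) (x := Lt.ai) hM0 [Lt.ci, Lt.T, Lt.c, Lt.a, Lt.Ti] (hat (rb_19 hy) 2 rfl) h
theorem dp_ai_10_s (hy : Hy g H)
    (j u : ℕ) (hu : u < M) (h : dp_ai_10 j u = true) : Gd g H Lt.ai u := by
  unfold dp_ai_10 at h
  rcases brec_true h with h | h
  · exact lF_good (T := T) (x := Lt.ai) hM0 [Lt.ci, Lt.Ti, Lt.c, Lt.a, Lt.T] (hat (rf_19 hy) 1 rfl) h
  · exact lF_good (T := T) (x := Lt.ai) hM0 [Lt.d, Lt.t, Lt.ai, Lt.ti, Lt.di] (hat (rb_12 hy) 1 rfl) h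
theorem dp_ai_11_s (hy : Hy g H)
    (j u : ℕ) (hu : u < M) (h : dp_ai_11 j u = true) : Gd g H Lt.ai u := by
  unfold dp_ai_11 at h
  rcases brec_true h with h | h
  · exact dp_ai_9_s hy j u hu h
  · exact dp_ai_10_s hy j u hu h
theorem dp_ai_12_s (hy : Hy g H)
    (j u : ℕ) (hu : u < M) (h : dp_ai_12 j u = true) : Gd g H Lt.ai u := by
  unfold dp_ai_12 at h
  rcases brec_true h with h | h
  · exact lS_good (T := T) (x := Lt.ai) hM0 hu [Lt.c, Lt.a, Lt.c, Lt.ai, Lt.ci] (hat (rb_9 hy) 0 rfl) h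
  · exact lS_good (T := T) (x := Lt.ai) hM0 hu [Lt.ci, Lt.ai, Lt.c, Lt.a, Lt.c] (hat (rb_9 hy) 4 rfl) h
theorem dp_ai_13_s (hy : Hy g H)
    (j u : ℕ) (hu : u < M) (h : dp_ai_13 j u = true) : Gd g H Lt.ai u := by
  unfold dp_ai_13 at h
  rcases brec_true h with h | h
  · exact lS_good (T := T) (x := Lt.ai) hM0 hu [Lt.c, Lt.Ti, Lt.ci, Lt.a, Lt.T] (hat (rf_10 hy) 1 rfl) h
  · exact lS_good (T := T) (x := Lt.ai) hM0 hu [Lt.ti, Lt.di, Lt.ai, Lt.d, Lt.t] (hat (rb_12 hy) 4 rfl) h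
theorem dp_ai_14_s (hy : Hy g H)
    (j u : ℕ) (hu : u < M) (h : dp_ai_14 j u = true) : Gd g H Lt.ai u := by
  unfold dp_ai_14 at h
  rcases brec_true h with h | h
  · exact lS_good (T := T) (x := Lt.ai) hM0 hu [Lt.b, Lt.ai, Lt.bi, Lt.a, Lt.bi] (hat (rb_8 hy) 0 rfl) h
  · exact dp_ai_13_s hy j u hu h
theorem dp_ai_15_s (hy : Hy g H)
    (j u : ℕ) (hu : u < M) (h : dp_ai_15 j u = true) : Gd g H Lt.ai u := by
  unfold dp_ai_15 at h
  rcases brec_true h with h | h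
  · exact dp_ai_12_s hy j u hu h
  · exact dp_ai_14_s hy j u hu h
theorem dp_ai_16_s (hy : Hy g H)
    (j u : ℕ) (hu : u < M) (h : dp_ai_16 j u = true) : Gd g H Lt.ai u := by
  unfold dp_ai_16 at h
  rcases brec_true h with h | h
  · exact lS_good (T := T) (x := Lt.ai) hM0 hu [Lt.b, Lt.a, Lt.bi, Lt.a, Lt.b] (hat (rf_8 hy) 3 rfl) h
  · exact lS_good (T := T) (x := Lt.ai) hM0 hu [Lt.di, Lt.a, Lt.di, Lt.ai, Lt.d] (hat (rb_13 hy) 3 rfl) h
theorem dp_ai_17_s (hy : Hy g H)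
    (j u : ℕ) (hu : u < M) (h : dp_ai_17 j u = true) : Gd g H Lt.ai u := by
  unfold dp_ai_17 at h
  rcases brec_true h with h | h
  · exact lS_good (T := T) (x := Lt.ai) hM0 hu [Lt.z, Lt.a, Lt.zi] (hat (rf_5 hy) 0 rfl) h
  · exact lS_good (T := T) (x := Lt.ai) hM0 hu [Lt.ci, Lt.a, Lt.c, Lt.a, Lt.ci] (hat (rf_9 hy) 5 rfl) h
theorem dp_ai_18_s (hy : Hy g H)
    (j u : ℕ) (hu : u < M) (h : dp_ai_18 j u = true) : Gd g H Lt.ai u := by
  unfold dp_ai_18 at h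
  rcases brec_true h with h | h
  · exact dp_ai_16_s hy j u hu h
  · exact dp_ai_17_s hy j u hu h
theorem dp_ai_19_s (hy : Hy g H)
    (j u : ℕ) (hu : u < M) (h : dp_ai_19 j u = true) : Gd g H Lt.ai u := by
  unfold dp_ai_19 at h
  rcases brec_true h with h | h
  · exact lS_good (T := T) (x := Lt.ai) hM0 hu [Lt.ci, Lt.Ti, Lt.c, Lt.a, Lt.T] (hat (rf_19 hy) 1 rfl) h
  · exact lS_good (T := T) (x := Lt.ai) hM0 hu [Lt.zi, Lt.a, Lt.z] (hat (rb_5 hy) 3 rfl) h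
theorem dp_ai_20_s (hy : Hy g H)
    (j u : ℕ) (hu : u < M) (h : dp_ai_20 j u = true) : Gd g H Lt.ai u := by
  unfold dp_ai_20 at h
  rcases brec_true h with h | h
  · exact lS_good (T := T) (x := Lt.ai) hM0 hu [Lt.bi, Lt.a, Lt.bi, Lt.ai, Lt.b] (hat (rb_8 hy) 2 rfl) h
  · exact dp_ai_19_s hy j u hu h
theorem dp_ai_21_s (hy : Hy g H)
    (j u : ℕ) (hu : u < M) (h : dp_ai_21 j u = true) : Gd g H Lt.ai u := by
  unfold dp_ai_21 at h
  rcases brec_true h with h | h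
  · exact lS_good (T := T) (x := Lt.ai) hM0 hu [Lt.ci, Lt.T, Lt.c, Lt.a, Lt.Ti] (hat (rb_19 hy) 2 rfl) h
  · exact lS_good (T := T) (x := Lt.ai) hM0 hu [Lt.c, Lt.T, Lt.ci, Lt.a, Lt.Ti] (hat (rb_10 hy) 2 rfl) h
theorem dp_ai_22_s (hy : Hy g H)
    (j u : ℕ) (hu : u < M) (h : dp_ai_22 j u = true) : Gd g H Lt.ai u := by
  unfold dp_ai_22 at h
  rcases brec_true h with h | h
  · exact lS_good (T := T) (x := Lt.ai) hM0 hu [Lt.d, Lt.t, Lt.ai, Lt.ti, Lt.di] (hat (rb_12 hy) 1 rfl) h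
  · exact lS_good (T := T) (x := Lt.ai) hM0 hu [Lt.d, Lt.ai, Lt.di, Lt.a, Lt.di] (hat (rb_13 hy) 1 rfl) h
theorem dp_ai_23_s (hy : Hy g H)
    (j u : ℕ) (hu : u < M) (h : dp_ai_23 j u = true) : Gd g H Lt.ai u := by
  unfold dp_ai_23 at h
  rcases brec_true h with h | h
  · exact lS_good (T := T) (x := Lt.ai) hM0 hu [Lt.d, Lt.a, Lt.di, Lt.a, Lt.d] (hat (rf_13 hy) 2 rfl) h
  · exact dp_ai_22_s hy j u hu h
theorem dp_ai_24_s (hy : Hy g H)
    (j u : ℕ) (hu : u < M) (h : dp_ai_24 j u = true) : Gd g H Lt.ai u := by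
  unfold dp_ai_24 at h
  rcases brec_true h with h | h
  · exact dp_ai_21_s hy j u hu h
  · exact dp_ai_23_s hy j u hu h
theorem dp_ai_25_s (hy : Hy g H)
    (j u : ℕ) (hu : u < M) (h : dp_ai_25 j u = true) : Gd g H Lt.ai u := by
  unfold dp_ai_25 at h
  rcases brec_true h with h | h
  · exact dp_ai_20_s hy j u hu h
  · exact dp_ai_24_s hy j u hu h
theorem dp_ai_26_s (hy : Hy g H)
    (j u : ℕ) (hu : u < M) (h : dp_ai_26 j u = true) : Gd g H Lt.ai u := by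
  unfold dp_ai_26 at h
  rcases brec_true h with h | h
  · exact dp_ai_18_s hy j u hu h
  · exact dp_ai_25_s hy j u hu h
theorem dp_ai_27_s (hy : Hy g H)
    (j u : ℕ) (hu : u < M) (h : dp_ai_27 j u = true) : Gd g H Lt.ai u := by
  unfold dp_ai_27 at h
  rcases brec_true h with h | h
  · exact dp_ai_15_s hy j u hu h
  · exact dp_ai_26_s hy j u hu h
theorem dp_ai_28_s (hy : Hy g H)
    (j u : ℕ) (hu : u < M) (h : dp_ai_28 j u = true) : Gd g H Lt.ai u := by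
  unfold dp_ai_28 at h
  rcases brec_true h with h | h
  · exact dp_ai_11_s hy j u hu h
  · exact dp_ai_27_s hy j u hu h
theorem dp_ai_29_s (hy : Hy g H)
    (j u : ℕ) (hu : u < M) (h : dp_ai_29 j u = true) : Gd g H Lt.ai u := by
  unfold dp_ai_29 at h
  rcases brec_true h with h | h
  · exact dp_ai_8_s hy j u hu h
  · exact dp_ai_28_s hy j u hu h
theorem dp_ai_30_s (hy : Hy g H)
    (j u : ℕ) (hu : u < M) (h : dp_ai_30 j u = true) : Gd g H Lt.ai u := by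
  unfold dp_ai_30 at h
  rcases brec_true h with h | h
  · rcases brec_true h with h | h
    · exact dp_ai_2_s hy j u hu h
    · exact dp_ai_4_s hy j u hu h
  · exact dp_ai_29_s hy j u hu h
theorem snd_ai (hy : Hy g H)
    (j u : ℕ) (hu : u < M) (h : disp_ai j u = true) : Gd g H Lt.ai u := by
  unfold disp_ai at h
  rcases brec_true h with h | h
  · rcases brec_true h with h | h
    · exact lF1_good (T := T) (x := Lt.ai) hM0 .a (hat (rf_21 hy) 0 rfl) h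
    · exact lF3_good (T := T) (x := Lt.ai) hM0 .zi .a .z (hat (rb_5 hy) 3 rfl) h
  · rcases brec_true h with h | h
    · rcases brec_true h with h | h
      · rcases brec_true h with h | h
        · exact lDef_good (T := T) (x := Lt.ai) (by decide) rfl h
        · exact lF3_good (T := T) (x := Lt.ai) hM0 .z .a .zi (hat (rf_5 hy) 0 rfl) h
      · exact dp_ai_0_s hy j u hu h
    · exact dp_ai_30_s hy j u hu h
theorem snc_ai (hy : Hy g H)
    (j u : ℕ) (hu : u < M) (h : chk_ai j u = true) : (T Lt.ai u < A ∧ Gd g H Lt.ai u) ∨ (A ≤ T Lt.ai u ∧ MG u < A) := by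
  unfold chk_ai at h
  cases hb : Nat.ble A (T_ai u) with
  | true => rw [hb] at h; exact Or.inr ⟨le_of_ble hb, le_of_ble h⟩
  | false => rw [hb] at h; exact Or.inl ⟨lt_of_ble_false hb, snd_ai hy j u hu h⟩
theorem dp_b_0_s (hy : Hy g H)
    (j u : ℕ) (hu : u < M) (h : dp_b_0 j u = true) : Gd g H Lt.b u := by
  unfold dp_b_0 at h
  rcases brec_true h with h | h
  · exact lF_good (T := T) (x := Lt.b) hM0 [Lt.c, Lt.T, Lt.ci, Lt.bi, Lt.Ti] (hat (rf_18 hy) 1 rfl) h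
  · exact lF_good (T := T) (x := Lt.b) hM0 [Lt.ti, Lt.b, Lt.d, Lt.bi, Lt.t] (hat (rf_16 hy) 3 rfl) h
theorem dp_b_1_s (hy : Hy g H)
    (j u : ℕ) (hu : u < M) (h : dp_b_1 j u = true) : Gd g H Lt.b u := by
  unfold dp_b_1 at h
  rcases brec_true h with h | h
  · exact lF_good (T := T) (x := Lt.b) hM0 [Lt.d, Lt.bi, Lt.t, Lt.b, Lt.ti] (hat (rf_16 hy) 5 rfl) h
  · exact dp_b_0_s hy j u hu h
theorem dp_b_2_s (hy : Hy g H)
    (j u : ℕ) (hu : u < M) (h : dp_b_2 j u = true) : Gd g H Lt.b u := by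
  unfold dp_b_2 at h
  rcases brec_true h with h | h
  · exact lF_good (T := T) (x := Lt.b) hM0 [Lt.t, Lt.bi, Lt.t, Lt.di, Lt.ti] (hat (rf_15 hy) 5 rfl) h
  · exact lF_good (T := T) (x := Lt.b) hM0 [Lt.a, Lt.bi, Lt.a, Lt.b, Lt.ai] (hat (rf_8 hy) 4 rfl) h
theorem dp_b_3_s (hy : Hy g H)
    (j u : ℕ) (hu : u < M) (h : dp_b_3 j u = true) : Gd g H Lt.b u := by
  unfold dp_b_3 at h
  rcases brec_true h with h | h
  · exact lF_good (T := T) (x := Lt.b) hM0 [Lt.ai, Lt.b, Lt.a, Lt.bi, Lt.a] (hat (rf_8 hy) 2 rfl) h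
  · exact lF_good (T := T) (x := Lt.b) hM0 [Lt.c, Lt.Ti, Lt.ci, Lt.bi, Lt.T] (hat (rb_18 hy) 2 rfl) h
theorem dp_b_4_s (hy : Hy g H)
    (j u : ℕ) (hu : u < M) (h : dp_b_4 j u = true) : Gd g H Lt.b u := by
  unfold dp_b_4 at h
  rcases brec_true h with h | h
  · exact dp_b_2_s hy j u hu h
  · exact dp_b_3_s hy j u hu h
theorem dp_b_5_s (hy : Hy g H)
    (j u : ℕ) (hu : u < M) (h : dp_b_5 j u = true) : Gd g H Lt.b u := by
  unfold dp_b_5 at h
  rcases brec_true h with h | h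
  · exact lF_good (T := T) (x := Lt.b) hM0 [Lt.ci, Lt.t, Lt.c, Lt.bi, Lt.ti] (hat (rf_17 hy) 1 rfl) h
  · exact lF_good (T := T) (x := Lt.b) hM0 [Lt.ti, Lt.bi, Lt.t, Lt.d, Lt.ti] (hat (rb_15 hy) 0 rfl) h
theorem dp_b_6_s (hy : Hy g H)
    (j u : ℕ) (hu : u < M) (h : dp_b_6 j u = true) : Gd g H Lt.b u := by
  unfold dp_b_6 at h
  rcases brec_true h with h | h
  · exact lF_good (T := T) (x := Lt.b) hM0 [Lt.ci, Lt.ti, Lt.c, Lt.bi, Lt.t] (hat (rb_17 hy) 2 rfl) h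
  · exact dp_b_5_s hy j u hu h
theorem dp_b_7_s (hy : Hy g H)
    (j u : ℕ) (hu : u < M) (h : dp_b_7 j u = true) : Gd g H Lt.b u := by
  unfold dp_b_7 at h
  rcases brec_true h with h | h
  · exact lS_good (T := T) (x := Lt.b) hM0 hu [Lt.bi] (hat (rf_23 hy) 1 rfl) h
  · exact lF_good (T := T) (x := Lt.b) hM0 [Lt.ai, Lt.bi, Lt.a, Lt.bi, Lt.ai] (hat (rb_8 hy) 1 rfl) h
theorem dp_b_8_s (hy : Hy g H)
    (j u : ℕ) (hu : u < M) (h : dp_b_8 j u = true) : Gd g H Lt.b u := by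
  unfold dp_b_8 at h
  rcases brec_true h with h | h
  · exact lS_good (T := T) (x := Lt.b) hM0 hu [Lt.c, Lt.T, Lt.ci, Lt.bi, Lt.Ti] (hat (rf_18 hy) 1 rfl) h
  · exact lS_good (T := T) (x := Lt.b) hM0 hu [Lt.ai, Lt.b, Lt.a, Lt.bi, Lt.a] (hat (rf_8 hy) 2 rfl) h
theorem dp_b_9_s (hy : Hy g H)
    (j u : ℕ) (hu : u < M) (h : dp_b_9 j u = true) : Gd g H Lt.b u := by
  unfold dp_b_9 at h
  rcases brec_true h with h | h
  · exact lF_good (T := T) (x := Lt.b) hM0 [Lt.di, Lt.bi, Lt.t, Lt.bi, Lt.ti] (hat (rb_16 hy) 0 rfl) h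
  · exact dp_b_8_s hy j u hu h
theorem dp_b_10_s (hy : Hy g H)
    (j u : ℕ) (hu : u < M) (h : dp_b_10 j u = true) : Gd g H Lt.b u := by
  unfold dp_b_10 at h
  rcases brec_true h with h | h
  · exact lS_good (T := T) (x := Lt.b) hM0 hu [Lt.c, Lt.Ti, Lt.ci, Lt.bi, Lt.T] (hat (rb_18 hy) 2 rfl) h
  · exact lS_good (T := T) (x := Lt.b) hM0 hu [Lt.a, Lt.bi, Lt.a, Lt.b, Lt.ai] (hat (rf_8 hy) 4 rfl) h
theorem dp_b_11_s (hy : Hy g H)
    (j u : ℕ) (hu : u < M) (h : dp_b_11 j u = true) : Gd g H Lt.b u := by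
  unfold dp_b_11 at h
  rcases brec_true h with h | h
  · exact lS_good (T := T) (x := Lt.b) hM0 hu [Lt.ti, Lt.b, Lt.d, Lt.bi, Lt.t] (hat (rf_16 hy) 3 rfl) h
  · exact lS_good (T := T) (x := Lt.b) hM0 hu [Lt.d, Lt.bi, Lt.t, Lt.b, Lt.ti] (hat (rf_16 hy) 5 rfl) h
theorem dp_b_12_s (hy : Hy g H)
    (j u : ℕ) (hu : u < M) (h : dp_b_12 j u = true) : Gd g H Lt.b u := by
  unfold dp_b_12 at h
  rcases brec_true h with h | h
  · exact dp_b_10_s hy j u hu h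
  · exact dp_b_11_s hy j u hu h
theorem dp_b_13_s (hy : Hy g H)
    (j u : ℕ) (hu : u < M) (h : dp_b_13 j u = true) : Gd g H Lt.b u := by
  unfold dp_b_13 at h
  rcases brec_true h with h | h
  · exact lS_good (T := T) (x := Lt.b) hM0 hu [Lt.ti, Lt.bi, Lt.t, Lt.d, Lt.ti] (hat (rb_15 hy) 0 rfl) h
  · exact lS_good (T := T) (x := Lt.b) hM0 hu [Lt.t, Lt.bi, Lt.t, Lt.di, Lt.ti] (hat (rf_15 hy) 5 rfl) h
theorem dp_b_14_s (hy : Hy g H)
    (j u : ℕ) (hu : u < M) (h : dp_b_14 j u = true) : Gd g H Lt.b u := by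
  unfold dp_b_14 at h
  rcases brec_true h with h | h
  · exact lS_good (T := T) (x := Lt.b) hM0 hu [Lt.ci, Lt.ti, Lt.c, Lt.bi, Lt.t] (hat (rb_17 hy) 2 rfl) h
  · exact dp_b_13_s hy j u hu h
theorem dp_b_15_s (hy : Hy g H)
    (j u : ℕ) (hu : u < M) (h : dp_b_15 j u = true) : Gd g H Lt.b u := by
  unfold dp_b_15 at h
  rcases brec_true h with h | h
  · exact lS_good (T := T) (x := Lt.b) hM0 hu [Lt.ai, Lt.bi, Lt.a, Lt.bi, Lt.ai] (hat (rb_8 hy) 1 rfl) h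
  · exact lS_good (T := T) (x := Lt.b) hM0 hu [Lt.di, Lt.bi, Lt.t, Lt.bi, Lt.ti] (hat (rb_16 hy) 0 rfl) h
theorem dp_b_16_s (hy : Hy g H)
    (j u : ℕ) (hu : u < M) (h : dp_b_16 j u = true) : Gd g H Lt.b u := by
  unfold dp_b_16 at h
  rcases brec_true h with h | h
  · exact lH_good (T := T) (x := Lt.b) hM0 [] [] (by rw [show cP g H 0 = _ from cc_zero]; exact sub_rel hy.1 (hy.2.2 _ (by decide))) h
  · exact lS_good (T := T) (x := Lt.b) hM0 hu [Lt.zi, Lt.bi, Lt.z] (hat (rf_4 hy) 2 rfl) h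
theorem dp_b_17_s (hy : Hy g H)
    (j u : ℕ) (hu : u < M) (h : dp_b_17 j u = true) : Gd g H Lt.b u := by
  unfold dp_b_17 at h
  rcases brec_true h with h | h
  · exact lS_good (T := T) (x := Lt.b) hM0 hu [Lt.z, Lt.bi, Lt.zi] (hat (rb_4 hy) 1 rfl) h
  · exact lS_good (T := T) (x := Lt.b) hM0 hu [Lt.ci, Lt.t, Lt.c, Lt.bi, Lt.ti] (hat (rf_17 hy) 1 rfl) h
theorem dp_b_18_s (hy : Hy g H)
    (j u : ℕ) (hu : u < M) (h : dp_b_18 j u = true) : Gd g H Lt.b u := by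
  unfold dp_b_18 at h
  rcases brec_true h with h | h
  · exact dp_b_16_s hy j u hu h
  · exact dp_b_17_s hy j u hu h
theorem dp_b_19_s (hy : Hy g H)
    (j u : ℕ) (hu : u < M) (h : dp_b_19 j u = true) : Gd g H Lt.b u := by
  unfold dp_b_19 at h
  rcases brec_true h with h | h
  · exact dp_b_15_s hy j u hu h
  · exact dp_b_18_s hy j u hu h
theorem dp_b_20_s (hy : Hy g H)
    (j u : ℕ) (hu : u < M) (h : dp_b_20 j u = true) : Gd g H Lt.b u := by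
  unfold dp_b_20 at h
  rcases brec_true h with h | h
  · exact dp_b_14_s hy j u hu h
  · exact dp_b_19_s hy j u hu h
theorem dp_b_21_s (hy : Hy g H)
    (j u : ℕ) (hu : u < M) (h : dp_b_21 j u = true) : Gd g H Lt.b u := by
  unfold dp_b_21 at h
  rcases brec_true h with h | h
  · exact dp_b_12_s hy j u hu h
  · exact dp_b_20_s hy j u hu h
theorem dp_b_22_s (hy : Hy g H)
    (j u : ℕ) (hu : u < M) (h : dp_b_22 j u = true) : Gd g H Lt.b u := by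
  unfold dp_b_22 at h
  rcases brec_true h with h | h
  · exact dp_b_9_s hy j u hu h
  · exact dp_b_21_s hy j u hu h
theorem dp_b_23_s (hy : Hy g H)
    (j u : ℕ) (hu : u < M) (h : dp_b_23 j u = true) : Gd g H Lt.b u := by
  unfold dp_b_23 at h
  rcases brec_true h with h | h
  · exact dp_b_7_s hy j u hu h
  · exact dp_b_22_s hy j u hu h
theorem dp_b_24_s (hy : Hy g H)
    (j u : ℕ) (hu : u < M) (h : dp_b_24 j u = true) : Gd g H Lt.b u := by
  unfold dp_b_24 at h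
  rcases brec_true h with h | h
  · exact dp_b_6_s hy j u hu h
  · exact dp_b_23_s hy j u hu h
theorem dp_b_25_s (hy : Hy g H)
    (j u : ℕ) (hu : u < M) (h : dp_b_25 j u = true) : Gd g H Lt.b u := by
  unfold dp_b_25 at h
  rcases brec_true h with h | h
  · exact dp_b_4_s hy j u hu h
  · exact dp_b_24_s hy j u hu h
theorem dp_b_26_s (hy : Hy g H)
    (j u : ℕ) (hu : u < M) (h : dp_b_26 j u = true) : Gd g H Lt.b u := by
  unfold dp_b_26 at h
  rcases brec_true h with h | h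
  · rcases brec_true h with h | h
    · rcases brec_true h with h | h
      · exact lDef_good (T := T) (x := Lt.b) (by decide) rfl h
      · exact lPar_good (T := T) (x := Lt.b) (x' := Lt.bi) (by decide) rfl (ivt hy _ _ rfl) h
    · exact dp_b_1_s hy j u hu h
  · exact dp_b_25_s hy j u hu h
theorem snd_b (hy : Hy g H)
    (j u : ℕ) (hu : u < M) (h : disp_b j u = true) : Gd g H Lt.b u := by
  unfold disp_b at h
  rcases brec_true h with h | h
  · rcases brec_true h with h | h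
    · exact lF1_good (T := T) (x := Lt.b) hM0 .bi (hat (rf_23 hy) 1 rfl) h
    · rcases brec_true h with h | h
      · exact lF3_good (T := T) (x := Lt.b) hM0 .z .bi .zi (hat (rb_4 hy) 1 rfl) h
      · exact lF3_good (T := T) (x := Lt.b) hM0 .zi .bi .z (hat (rf_4 hy) 2 rfl) h
  · exact dp_b_26_s hy j u hu h
theorem snc_b (hy : Hy g H)
    (j u : ℕ) (hu : u < M) (h : chk_b j u = true) : (T Lt.b u < A ∧ Gd g H Lt.b u) ∨ (A ≤ T Lt.b u ∧ MG u < A) := by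
  unfold chk_b at h
  cases hb : Nat.ble A (T_b u) with
  | true => rw [hb] at h; exact Or.inr ⟨le_of_ble hb, le_of_ble h⟩
  | false => rw [hb] at h; exact Or.inl ⟨lt_of_ble_false hb, snd_b hy j u hu h⟩
theorem dp_bi_0_s (hy : Hy g H)
    (j u : ℕ) (hu : u < M) (h : dp_bi_0 j u = true) : Gd g H Lt.bi u := by
  unfold dp_bi_0 at h
  rcases brec_true h with h | h
  · exact lF_good (T := T) (x := Lt.bi) hM0 [Lt.ti, Lt.b, Lt.di, Lt.bi, Lt.t] (hat (rb_16 hy) 4 rfl) h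
  · exact lF_good (T := T) (x := Lt.bi) hM0 [Lt.T, Lt.b, Lt.c, Lt.Ti, Lt.ci] (hat (rb_18 hy) 0 rfl) h
theorem dp_bi_1_s (hy : Hy g H)
    (j u : ℕ) (hu : u < M) (h : dp_bi_1 j u = true) : Gd g H Lt.bi u := by
  unfold dp_bi_1 at h
  rcases brec_true h with h | h
  · exact lF_good (T := T) (x := Lt.bi) hM0 [Lt.t, Lt.bi, Lt.ti, Lt.b, Lt.di] (hat (rb_16 hy) 2 rfl) h
  · exact dp_bi_0_s hy j u hu h
theorem dp_bi_2_s (hy : Hy g H)
    (j u : ℕ) (hu : u < M) (h : dp_bi_2 j u = true) : Gd g H Lt.bi u := by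
  unfold dp_bi_2 at h
  rcases brec_true h with h | h
  · exact lF_good (T := T) (x := Lt.bi) hM0 [Lt.ai, Lt.b, Lt.ai, Lt.bi, Lt.a] (hat (rb_8 hy) 5 rfl) h
  · exact lF_good (T := T) (x := Lt.bi) hM0 [Lt.t, Lt.d, Lt.ti, Lt.b, Lt.ti] (hat (rb_15 hy) 2 rfl) h
theorem dp_bi_3_s (hy : Hy g H)
    (j u : ℕ) (hu : u < M) (h : dp_bi_3 j u = true) : Gd g H Lt.bi u := by
  unfold dp_bi_3 at h
  rcases brec_true h with h | h
  · exact lF_good (T := T) (x := Lt.bi) hM0 [Lt.a, Lt.bi, Lt.ai, Lt.b, Lt.ai] (hat (rb_8 hy) 3 rfl) h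
  · exact lS_good (T := T) (x := Lt.bi) hM0 hu [Lt.b] (hat (rf_23 hy) 0 rfl) h
theorem dp_bi_4_s (hy : Hy g H)
    (j u : ℕ) (hu : u < M) (h : dp_bi_4 j u = true) : Gd g H Lt.bi u := by
  unfold dp_bi_4 at h
  rcases brec_true h with h | h
  · exact lF_good (T := T) (x := Lt.bi) hM0 [Lt.Ti, Lt.b, Lt.c, Lt.T, Lt.ci] (hat (rf_18 hy) 5 rfl) h
  · exact dp_bi_3_s hy j u hu h
theorem dp_bi_5_s (hy : Hy g H)
    (j u : ℕ) (hu : u < M) (h : dp_bi_5 j u = true) : Gd g H Lt.bi u := by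
  unfold dp_bi_5 at h
  rcases brec_true h with h | h
  · exact lF_good (T := T) (x := Lt.bi) hM0 [Lt.t, Lt.b, Lt.ti, Lt.b, Lt.d] (hat (rf_16 hy) 1 rfl) h
  · exact lF_good (T := T) (x := Lt.bi) hM0 [Lt.t, Lt.b, Lt.ci, Lt.ti, Lt.c] (hat (rb_17 hy) 0 rfl) h
theorem dp_bi_6_s (hy : Hy g H)
    (j u : ℕ) (hu : u < M) (h : dp_bi_6 j u = true) : Gd g H Lt.bi u := by
  unfold dp_bi_6 at h
  rcases brec_true h with h | h
  · exact lF_good (T := T) (x := Lt.bi) hM0 [Lt.t, Lt.di, Lt.ti, Lt.b, Lt.t] (hat (rf_15 hy) 1 rfl) h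
  · exact dp_bi_5_s hy j u hu h
theorem dp_bi_7_s (hy : Hy g H)
    (j u : ℕ) (hu : u < M) (h : dp_bi_7 j u = true) : Gd g H Lt.bi u := by
  unfold dp_bi_7 at h
  rcases brec_true h with h | h
  · exact lF_good (T := T) (x := Lt.bi) hM0 [Lt.ti, Lt.b, Lt.ci, Lt.t, Lt.c] (hat (rf_17 hy) 5 rfl) h
  · exact lS_good (T := T) (x := Lt.bi) hM0 hu [Lt.a, Lt.b, Lt.ai, Lt.b, Lt.a] (hat (rf_8 hy) 0 rfl) h
theorem dp_bi_8_s (hy : Hy g H)
    (j u : ℕ) (hu : u < M) (h : dp_bi_8 j u = true) : Gd g H Lt.bi u := by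
  unfold dp_bi_8 at h
  rcases brec_true h with h | h
  · exact lF_good (T := T) (x := Lt.bi) hM0 [Lt.a, Lt.b, Lt.ai, Lt.b, Lt.a] (hat (rf_8 hy) 0 rfl) h
  · exact dp_bi_7_s hy j u hu h
theorem dp_bi_9_s (hy : Hy g H)
    (j u : ℕ) (hu : u < M) (h : dp_bi_9 j u = true) : Gd g H Lt.bi u := by
  unfold dp_bi_9 at h
  rcases brec_true h with h | h
  · exact lS_good (T := T) (x := Lt.bi) hM0 hu [Lt.ai, Lt.b, Lt.ai, Lt.bi, Lt.a] (hat (rb_8 hy) 5 rfl) h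
  · exact lS_good (T := T) (x := Lt.bi) hM0 hu [Lt.t, Lt.bi, Lt.ti, Lt.b, Lt.di] (hat (rb_16 hy) 2 rfl) h
theorem dp_bi_10_s (hy : Hy g H)
    (j u : ℕ) (hu : u < M) (h : dp_bi_10 j u = true) : Gd g H Lt.bi u := by
  unfold dp_bi_10 at h
  rcases brec_true h with h | h
  · exact lS_good (T := T) (x := Lt.bi) hM0 hu [Lt.t, Lt.d, Lt.ti, Lt.b, Lt.ti] (hat (rb_15 hy) 2 rfl) h
  · exact lS_good (T := T) (x := Lt.bi) hM0 hu [Lt.Ti, Lt.b, Lt.c, Lt.T, Lt.ci] (hat (rf_18 hy) 5 rfl) h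
theorem dp_bi_11_s (hy : Hy g H)
    (j u : ℕ) (hu : u < M) (h : dp_bi_11 j u = true) : Gd g H Lt.bi u := by
  unfold dp_bi_11 at h
  rcases brec_true h with h | h
  · exact dp_bi_9_s hy j u hu h
  · exact dp_bi_10_s hy j u hu h
theorem dp_bi_12_s (hy : Hy g H)
    (j u : ℕ) (hu : u < M) (h : dp_bi_12 j u = true) : Gd g H Lt.bi u := by
  unfold dp_bi_12 at h
  rcases brec_true h with h | h
  · exact lS_good (T := T) (x := Lt.bi) hM0 hu [Lt.a, Lt.bi, Lt.ai, Lt.b, Lt.ai] (hat (rb_8 hy) 3 rfl) h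
  · exact lS_good (T := T) (x := Lt.bi) hM0 hu [Lt.ti, Lt.b, Lt.ci, Lt.t, Lt.c] (hat (rf_17 hy) 5 rfl) h
theorem dp_bi_13_s (hy : Hy g H)
    (j u : ℕ) (hu : u < M) (h : dp_bi_13 j u = true) : Gd g H Lt.bi u := by
  unfold dp_bi_13 at h
  rcases brec_true h with h | h
  · exact lS_good (T := T) (x := Lt.bi) hM0 hu [Lt.T, Lt.b, Lt.c, Lt.Ti, Lt.ci] (hat (rb_18 hy) 0 rfl) h
  · exact dp_bi_12_s hy j u hu h
theorem dp_bi_14_s (hy : Hy g H)
    (j u : ℕ) (hu : u < M) (h : dp_bi_14 j u = true) : Gd g H Lt.bi u := by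
  unfold dp_bi_14 at h
  rcases brec_true h with h | h
  · exact lS_good (T := T) (x := Lt.bi) hM0 hu [Lt.t, Lt.b, Lt.ci, Lt.ti, Lt.c] (hat (rb_17 hy) 0 rfl) h
  · exact lS_good (T := T) (x := Lt.bi) hM0 hu [Lt.t, Lt.di, Lt.ti, Lt.b, Lt.t] (hat (rf_15 hy) 1 rfl) h
theorem dp_bi_15_s (hy : Hy g H)
    (j u : ℕ) (hu : u < M) (h : dp_bi_15 j u = true) : Gd g H Lt.bi u := by
  unfold dp_bi_15 at h
  rcases brec_true h with h | h
  · exact lS_good (T := T) (x := Lt.bi) hM0 hu [Lt.ti, Lt.b, Lt.di, Lt.bi, Lt.t] (hat (rb_16 hy) 4 rfl) h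
  · exact lS_good (T := T) (x := Lt.bi) hM0 hu [Lt.z, Lt.b, Lt.zi] (hat (rf_4 hy) 0 rfl) h
theorem dp_bi_16_s (hy : Hy g H)
    (j u : ℕ) (hu : u < M) (h : dp_bi_16 j u = true) : Gd g H Lt.bi u := by
  unfold dp_bi_16 at h
  rcases brec_true h with h | h
  · exact lS_good (T := T) (x := Lt.bi) hM0 hu [Lt.t, Lt.b, Lt.ti, Lt.b, Lt.d] (hat (rf_16 hy) 1 rfl) h
  · exact lS_good (T := T) (x := Lt.bi) hM0 hu [Lt.ai, Lt.bi, Lt.t, Lt.Ti, Lt.bi, Lt.di, Lt.ci, Lt.a, Lt.ti, Lt.ci, Lt.bi, Lt.ai, Lt.bi, Lt.t, Lt.Ti, Lt.bi, Lt.di, Lt.ci, Lt.a, Lt.ti, Lt.ci, Lt.bi, Lt.ai, Lt.bi, Lt.t, Lt.Ti, Lt.z, Lt.bi, Lt.di, Lt.ci, Lt.a, Lt.ti, Lt.ci, Lt.bi, Lt.ai, Lt.bi, Lt.t, Lt.Ti, Lt.bi, Lt.di, Lt.ci, Lt.a, Lt.ti, Lt.ci] (hat (rb_20 hy) 19 rfl) h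
theorem dp_bi_17_s (hy : Hy g H)
    (j u : ℕ) (hu : u < M) (h : dp_bi_17 j u = true) : Gd g H Lt.bi u := by
  unfold dp_bi_17 at h
  rcases brec_true h with h | h
  · exact lS_good (T := T) (x := Lt.bi) hM0 hu [Lt.zi, Lt.b, Lt.z] (hat (rb_4 hy) 3 rfl) h
  · exact dp_bi_16_s hy j u hu h
theorem dp_bi_18_s (hy : Hy g H)
    (j u : ℕ) (hu : u < M) (h : dp_bi_18 j u = true) : Gd g H Lt.bi u := by
  unfold dp_bi_18 at h
  rcases brec_true h with h | h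
  · exact dp_bi_15_s hy j u hu h
  · exact dp_bi_17_s hy j u hu h
theorem dp_bi_19_s (hy : Hy g H)
    (j u : ℕ) (hu : u < M) (h : dp_bi_19 j u = true) : Gd g H Lt.bi u := by
  unfold dp_bi_19 at h
  rcases brec_true h with h | h
  · exact dp_bi_14_s hy j u hu h
  · exact dp_bi_18_s hy j u hu h
theorem dp_bi_20_s (hy : Hy g H)
    (j u : ℕ) (hu : u < M) (h : dp_bi_20 j u = true) : Gd g H Lt.bi u := by
  unfold dp_bi_20 at h
  rcases brec_true h with h | h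
  · exact dp_bi_13_s hy j u hu h
  · exact dp_bi_19_s hy j u hu h
theorem dp_bi_21_s (hy : Hy g H)
    (j u : ℕ) (hu : u < M) (h : dp_bi_21 j u = true) : Gd g H Lt.bi u := by
  unfold dp_bi_21 at h
  rcases brec_true h with h | h
  · exact dp_bi_11_s hy j u hu h
  · exact dp_bi_20_s hy j u hu h
theorem dp_bi_22_s (hy : Hy g H)
    (j u : ℕ) (hu : u < M) (h : dp_bi_22 j u = true) : Gd g H Lt.bi u := by
  unfold dp_bi_22 at h
  rcases brec_true h with h | h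
  · exact dp_bi_8_s hy j u hu h
  · exact dp_bi_21_s hy j u hu h
theorem dp_bi_23_s (hy : Hy g H)
    (j u : ℕ) (hu : u < M) (h : dp_bi_23 j u = true) : Gd g H Lt.bi u := by
  unfold dp_bi_23 at h
  rcases brec_true h with h | h
  · exact dp_bi_6_s hy j u hu h
  · exact dp_bi_22_s hy j u hu h
theorem dp_bi_24_s (hy : Hy g H)
    (j u : ℕ) (hu : u < M) (h : dp_bi_24 j u = true) : Gd g H Lt.bi u := by
  unfold dp_bi_24 at h
  rcases brec_true h with h | h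
  · rcases brec_true h with h | h
    · exact dp_bi_2_s hy j u hu h
    · exact dp_bi_4_s hy j u hu h
  · exact dp_bi_23_s hy j u hu h
theorem dp_bi_25_s (hy : Hy g H)
    (j u : ℕ) (hu : u < M) (h : dp_bi_25 j u = true) : Gd g H Lt.bi u := by
  unfold dp_bi_25 at h
  rcases brec_true h with h | h
  · rcases brec_true h with h | h
    · rcases brec_true h with h | h
      · exact lF3_good (T := T) (x := Lt.bi) hM0 .z .b .zi (hat (rf_4 hy) 0 rfl) h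
      · exact lDef_good (T := T) (x := Lt.bi) (by decide) rfl h
    · exact dp_bi_1_s hy j u hu h
  · exact dp_bi_24_s hy j u hu h
theorem snd_bi (hy : Hy g H)
    (j u : ℕ) (hu : u < M) (h : disp_bi j u = true) : Gd g H Lt.bi u := by
  unfold disp_bi at h
  rcases brec_true h with h | h
  · rcases brec_true h with h | h
    · exact lF1_good (T := T) (x := Lt.bi) hM0 .b (hat (rf_23 hy) 0 rfl) h
    · rcases brec_true h with h | h
      · exact lF3_good (T := T) (x := Lt.bi) hM0 .zi .b .z (hat (rb_4 hy) 3 rfl) h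
      · exact lPar_good (T := T) (x := Lt.bi) (x' := Lt.b) (by decide) rfl (ivt hy _ _ rfl) h
  · exact dp_bi_25_s hy j u hu h
theorem snc_bi (hy : Hy g H)
    (j u : ℕ) (hu : u < M) (h : chk_bi j u = true) : (T Lt.bi u < A ∧ Gd g H Lt.bi u) ∨ (A ≤ T Lt.bi u ∧ MG u < A) := by
  unfold chk_bi at h
  cases hb : Nat.ble A (T_bi u) with
  | true => rw [hb] at h; exact Or.inr ⟨le_of_ble hb, le_of_ble h⟩
  | false => rw [hb] at h; exact Or.inl ⟨lt_of_ble_false hb, snd_bi hy j u hu h⟩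
theorem dp_c_0_s (hy : Hy g H)
    (j u : ℕ) (hu : u < M) (h : dp_c_0 j u = true) : Gd g H Lt.c u := by
  unfold dp_c_0 at h
  rcases brec_true h with h | h
  · exact lDef_good (T := T) (x := Lt.c) (by decide) rfl h
  · exact lF_good (T := T) (x := Lt.c) hM0 [Lt.ai, Lt.ci, Lt.ai, Lt.c, Lt.a] (hat (rb_9 hy) 3 rfl) h
theorem dp_c_1_s (hy : Hy g H)
    (j u : ℕ) (hu : u < M) (h : dp_c_1 j u = true) : Gd g H Lt.c u := by
  unfold dp_c_1 at h
  rcases brec_true h with h | h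
  · exact lF_good (T := T) (x := Lt.c) hM0 [Lt.bi, Lt.ti, Lt.b, Lt.ci, Lt.t] (hat (rf_17 hy) 4 rfl) h
  · exact lS_good (T := T) (x := Lt.c) hM0 hu [Lt.ci] (hat (rf_25 hy) 1 rfl) h
theorem dp_c_2_s (hy : Hy g H)
    (j u : ℕ) (hu : u < M) (h : dp_c_2 j u = true) : Gd g H Lt.c u := by
  unfold dp_c_2 at h
  rcases brec_true h with h | h
  · exact lF_good (T := T) (x := Lt.c) hM0 [Lt.bi, Lt.t, Lt.b, Lt.ci, Lt.ti] (hat (rb_17 hy) 5 rfl) h
  · exact dp_c_1_s hy j u hu h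
theorem dp_c_3_s (hy : Hy g H)
    (j u : ℕ) (hu : u < M) (h : dp_c_3 j u = true) : Gd g H Lt.c u := by
  unfold dp_c_3 at h
  rcases brec_true h with h | h
  · exact lF_good (T := T) (x := Lt.c) hM0 [Lt.a, Lt.c, Lt.ai, Lt.ci, Lt.ai] (hat (rb_9 hy) 1 rfl) h
  · exact lF_good (T := T) (x := Lt.c) hM0 [Lt.di, Lt.ci, Lt.di, Lt.c, Lt.d] (hat (rf_14 hy) 3 rfl) h
theorem dp_c_4_s (hy : Hy g H)
    (j u : ℕ) (hu : u < M) (h : dp_c_4 j u = true) : Gd g H Lt.c u := by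
  unfold dp_c_4 at h
  rcases brec_true h with h | h
  · exact lF_good (T := T) (x := Lt.c) hM0 [Lt.a, Lt.T, Lt.ai, Lt.ci, Lt.Ti] (hat (rf_19 hy) 4 rfl) h
  · exact dp_c_3_s hy j u hu h
theorem dp_c_5_s (hy : Hy g H)
    (j u : ℕ) (hu : u < M) (h : dp_c_5 j u = true) : Gd g H Lt.c u := by
  unfold dp_c_5 at h
  rcases brec_true h with h | h
  · exact lF_good (T := T) (x := Lt.c) hM0 [Lt.d, Lt.c, Lt.di, Lt.ci, Lt.di] (hat (rf_14 hy) 1 rfl) h
  · exact lF_good (T := T) (x := Lt.c) hM0 [Lt.T, Lt.ci, Lt.a, Lt.Ti, Lt.ai] (hat (rb_10 hy) 3 rfl) h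
theorem dp_c_6_s (hy : Hy g H)
    (j u : ℕ) (hu : u < M) (h : dp_c_6 j u = true) : Gd g H Lt.c u := by
  unfold dp_c_6 at h
  rcases brec_true h with h | h
  · exact lF_good (T := T) (x := Lt.c) hM0 [Lt.a, Lt.Ti, Lt.ai, Lt.ci, Lt.T] (hat (rb_19 hy) 5 rfl) h
  · exact lF_good (T := T) (x := Lt.c) hM0 [Lt.Ti, Lt.ci, Lt.a, Lt.T, Lt.ai] (hat (rf_10 hy) 2 rfl) h
theorem dp_c_7_s (hy : Hy g H)
    (j u : ℕ) (hu : u < M) (h : dp_c_7 j u = true) : Gd g H Lt.c u := by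
  unfold dp_c_7 at h
  rcases brec_true h with h | h
  · exact dp_c_5_s hy j u hu h
  · exact dp_c_6_s hy j u hu h
theorem dp_c_8_s (hy : Hy g H)
    (j u : ℕ) (hu : u < M) (h : dp_c_8 j u = true) : Gd g H Lt.c u := by
  unfold dp_c_8 at h
  rcases brec_true h with h | h
  · exact lF_good (T := T) (x := Lt.c) hM0 [Lt.a, Lt.ci, Lt.ai, Lt.ci, Lt.a] (hat (rf_9 hy) 2 rfl) h
  · exact lF_good (T := T) (x := Lt.c) hM0 [Lt.d, Lt.ci, Lt.di, Lt.ci, Lt.d] (hat (rb_14 hy) 2 rfl) h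
theorem dp_c_9_s (hy : Hy g H)
    (j u : ℕ) (hu : u < M) (h : dp_c_9 j u = true) : Gd g H Lt.c u := by
  unfold dp_c_9 at h
  rcases brec_true h with h | h
  · exact lF_good (T := T) (x := Lt.c) hM0 [Lt.T, Lt.ci, Lt.bi, Lt.Ti, Lt.b] (hat (rf_18 hy) 2 rfl) h
  · exact dp_c_8_s hy j u hu h
theorem dp_c_10_s (hy : Hy g H)
    (j u : ℕ) (hu : u < M) (h : dp_c_10 j u = true) : Gd g H Lt.c u := by
  unfold dp_c_10 at h
  rcases brec_true h with h | h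
  · exact lS_good (T := T) (x := Lt.c) hM0 hu [Lt.bi, Lt.ti, Lt.b, Lt.ci, Lt.t] (hat (rf_17 hy) 4 rfl) h
  · exact lS_good (T := T) (x := Lt.c) hM0 hu [Lt.di, Lt.ci, Lt.di, Lt.c, Lt.d] (hat (rf_14 hy) 3 rfl) h
theorem dp_c_11_s (hy : Hy g H)
    (j u : ℕ) (hu : u < M) (h : dp_c_11 j u = true) : Gd g H Lt.c u := by
  unfold dp_c_11 at h
  rcases brec_true h with h | h
  · exact lF_good (T := T) (x := Lt.c) hM0 [Lt.Ti, Lt.ci, Lt.bi, Lt.T, Lt.b] (hat (rb_18 hy) 3 rfl) h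
  · exact dp_c_10_s hy j u hu h
theorem dp_c_12_s (hy : Hy g H)
    (j u : ℕ) (hu : u < M) (h : dp_c_12 j u = true) : Gd g H Lt.c u := by
  unfold dp_c_12 at h
  rcases brec_true h with h | h
  · exact lS_good (T := T) (x := Lt.c) hM0 hu [Lt.bi, Lt.t, Lt.b, Lt.ci, Lt.ti] (hat (rb_17 hy) 5 rfl) h
  · exact lS_good (T := T) (x := Lt.c) hM0 hu [Lt.a, Lt.c, Lt.ai, Lt.ci, Lt.ai] (hat (rb_9 hy) 1 rfl) h
theorem dp_c_13_s (hy : Hy g H)
    (j u : ℕ) (hu : u < M) (h : dp_c_13 j u = true) : Gd g H Lt.c u := by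
  unfold dp_c_13 at h
  rcases brec_true h with h | h
  · exact lS_good (T := T) (x := Lt.c) hM0 hu [Lt.ai, Lt.ci, Lt.ai, Lt.c, Lt.a] (hat (rb_9 hy) 3 rfl) h
  · exact dp_c_12_s hy j u hu h
theorem dp_c_14_s (hy : Hy g H)
    (j u : ℕ) (hu : u < M) (h : dp_c_14 j u = true) : Gd g H Lt.c u := by
  unfold dp_c_14 at h
  rcases brec_true h with h | h
  · exact lS_good (T := T) (x := Lt.c) hM0 hu [Lt.d, Lt.c, Lt.di, Lt.ci, Lt.di] (hat (rf_14 hy) 1 rfl) h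
  · exact lS_good (T := T) (x := Lt.c) hM0 hu [Lt.a, Lt.ci, Lt.ai, Lt.ci, Lt.a] (hat (rf_9 hy) 2 rfl) h
theorem dp_c_15_s (hy : Hy g H)
    (j u : ℕ) (hu : u < M) (h : dp_c_15 j u = true) : Gd g H Lt.c u := by
  unfold dp_c_15 at h
  rcases brec_true h with h | h
  · exact lS_good (T := T) (x := Lt.c) hM0 hu [Lt.d, Lt.ci, Lt.di, Lt.ci, Lt.d] (hat (rb_14 hy) 2 rfl) h
  · exact dp_c_14_s hy j u hu h
theorem dp_c_16_s (hy : Hy g H)
    (j u : ℕ) (hu : u < M) (h : dp_c_16 j u = true) : Gd g H Lt.c u := by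
  unfold dp_c_16 at h
  rcases brec_true h with h | h
  · exact lS_good (T := T) (x := Lt.c) hM0 hu [Lt.Ti, Lt.ci, Lt.a, Lt.T, Lt.ai] (hat (rf_10 hy) 2 rfl) h
  · exact lS_good (T := T) (x := Lt.c) hM0 hu [Lt.a, Lt.T, Lt.ai, Lt.ci, Lt.Ti] (hat (rf_19 hy) 4 rfl) h
theorem dp_c_17_s (hy : Hy g H)
    (j u : ℕ) (hu : u < M) (h : dp_c_17 j u = true) : Gd g H Lt.c u := by
  unfold dp_c_17 at h
  rcases brec_true h with h | h
  · exact lS_good (T := T) (x := Lt.c) hM0 hu [Lt.T, Lt.ci, Lt.bi, Lt.Ti, Lt.b] (hat (rf_18 hy) 2 rfl) h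
  · exact lS_good (T := T) (x := Lt.c) hM0 hu [Lt.T, Lt.ci, Lt.a, Lt.Ti, Lt.ai] (hat (rb_10 hy) 3 rfl) h
theorem dp_c_18_s (hy : Hy g H)
    (j u : ℕ) (hu : u < M) (h : dp_c_18 j u = true) : Gd g H Lt.c u := by
  unfold dp_c_18 at h
  rcases brec_true h with h | h
  · exact lS_good (T := T) (x := Lt.c) hM0 hu [Lt.a, Lt.Ti, Lt.ai, Lt.ci, Lt.T] (hat (rb_19 hy) 5 rfl) h
  · exact lS_good (T := T) (x := Lt.c) hM0 hu [Lt.d, Lt.b, Lt.T, Lt.ti, Lt.b, Lt.a, Lt.b, Lt.c, Lt.t, Lt.ai, Lt.c, Lt.d, Lt.b, Lt.T, Lt.ti, Lt.b, Lt.a, Lt.b, Lt.c, Lt.t, Lt.ai, Lt.c, Lt.d, Lt.b, Lt.T, Lt.ti, Lt.b, Lt.a, Lt.b, Lt.c, Lt.t, Lt.ai, Lt.c, Lt.d, Lt.b, Lt.zi, Lt.T, Lt.ti, Lt.b, Lt.a, Lt.b, Lt.c, Lt.t, Lt.ai] (hat (rf_20 hy) 9 rfl) h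
theorem dp_c_19_s (hy : Hy g H)
    (j u : ℕ) (hu : u < M) (h : dp_c_19 j u = true) : Gd g H Lt.c u := by
  unfold dp_c_19 at h
  rcases brec_true h with h | h
  · exact lH_good (T := T) (x := Lt.c) hM0 [] [] (by rw [show cP g H 0 = _ from cc_zero]; exact sub_rel hy.1 (hy.2.2 _ (by decide))) h
  · exact dp_c_18_s hy j u hu h
theorem dp_c_20_s (hy : Hy g H)
    (j u : ℕ) (hu : u < M) (h : dp_c_20 j u = true) : Gd g H Lt.c u := by
  unfold dp_c_20 at h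
  rcases brec_true h with h | h
  · exact dp_c_17_s hy j u hu h
  · exact dp_c_19_s hy j u hu h
theorem dp_c_21_s (hy : Hy g H)
    (j u : ℕ) (hu : u < M) (h : dp_c_21 j u = true) : Gd g H Lt.c u := by
  unfold dp_c_21 at h
  rcases brec_true h with h | h
  · exact dp_c_16_s hy j u hu h
  · exact dp_c_20_s hy j u hu h
theorem dp_c_22_s (hy : Hy g H)
    (j u : ℕ) (hu : u < M) (h : dp_c_22 j u = true) : Gd g H Lt.c u := by
  unfold dp_c_22 at h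
  rcases brec_true h with h | h
  · exact dp_c_15_s hy j u hu h
  · exact dp_c_21_s hy j u hu h
theorem dp_c_23_s (hy : Hy g H)
    (j u : ℕ) (hu : u < M) (h : dp_c_23 j u = true) : Gd g H Lt.c u := by
  unfold dp_c_23 at h
  rcases brec_true h with h | h
  · exact dp_c_13_s hy j u hu h
  · exact dp_c_22_s hy j u hu h
theorem dp_c_24_s (hy : Hy g H)
    (j u : ℕ) (hu : u < M) (h : dp_c_24 j u = true) : Gd g H Lt.c u := by
  unfold dp_c_24 at h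
  rcases brec_true h with h | h
  · exact dp_c_11_s hy j u hu h
  · exact dp_c_23_s hy j u hu h
theorem dp_c_25_s (hy : Hy g H)
    (j u : ℕ) (hu : u < M) (h : dp_c_25 j u = true) : Gd g H Lt.c u := by
  unfold dp_c_25 at h
  rcases brec_true h with h | h
  · exact dp_c_9_s hy j u hu h
  · exact dp_c_24_s hy j u hu h
theorem dp_c_26_s (hy : Hy g H)
    (j u : ℕ) (hu : u < M) (h : dp_c_26 j u = true) : Gd g H Lt.c u := by
  unfold dp_c_26 at h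
  rcases brec_true h with h | h
  · exact dp_c_7_s hy j u hu h
  · exact dp_c_25_s hy j u hu h
theorem dp_c_27_s (hy : Hy g H)
    (j u : ℕ) (hu : u < M) (h : dp_c_27 j u = true) : Gd g H Lt.c u := by
  unfold dp_c_27 at h
  rcases brec_true h with h | h
  · rcases brec_true h with h | h
    · exact dp_c_2_s hy j u hu h
    · exact dp_c_4_s hy j u hu h
  · exact dp_c_26_s hy j u hu h
theorem snd_c (hy : Hy g H)
    (j u : ℕ) (hu : u < M) (h : disp_c j u = true) : Gd g H Lt.c u := by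
  unfold disp_c at h
  rcases brec_true h with h | h
  · rcases brec_true h with h | h
    · exact lF1_good (T := T) (x := Lt.c) hM0 .ci (hat (rf_25 hy) 1 rfl) h
    · exact lF3_good (T := T) (x := Lt.c) hM0 .zi .ci .z (hat (rf_3 hy) 2 rfl) h
  · rcases brec_true h with h | h
    · rcases brec_true h with h | h
      · rcases brec_true h with h | h
        · exact lF3_good (T := T) (x := Lt.c) hM0 .z .ci .zi (hat (rb_3 hy) 1 rfl) h
        · exact lPar_good (T := T) (x := Lt.c) (x' := Lt.ci) (by decide) rfl (ivt hy _ _ rfl) h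
      · exact dp_c_0_s hy j u hu h
    · exact dp_c_27_s hy j u hu h
theorem snc_c (hy : Hy g H)
    (j u : ℕ) (hu : u < M) (h : chk_c j u = true) : (T Lt.c u < A ∧ Gd g H Lt.c u) ∨ (A ≤ T Lt.c u ∧ MG u < A) := by
  unfold chk_c at h
  cases hb : Nat.ble A (T_c u) with
  | true => rw [hb] at h; exact Or.inr ⟨le_of_ble hb, le_of_ble h⟩
  | false => rw [hb] at h; exact Or.inl ⟨lt_of_ble_false hb, snd_c hy j u hu h⟩
theorem dp_ci_0_s (hy : Hy g H)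
    (j u : ℕ) (hu : u < M) (h : dp_ci_0 j u = true) : Gd g H Lt.ci u := by
  unfold dp_ci_0 at h
  rcases brec_true h with h | h
  · exact lF_good (T := T) (x := Lt.ci) hM0 [Lt.ai, Lt.ci, Lt.a, Lt.c, Lt.a] (hat (rf_9 hy) 4 rfl) h
  · exact lF_good (T := T) (x := Lt.ci) hM0 [Lt.di, Lt.ci, Lt.d, Lt.c, Lt.d] (hat (rb_14 hy) 4 rfl) h
theorem dp_ci_1_s (hy : Hy g H)
    (j u : ℕ) (hu : u < M) (h : dp_ci_1 j u = true) : Gd g H Lt.ci u := by
  unfold dp_ci_1 at h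
  rcases brec_true h with h | h
  · exact lF_good (T := T) (x := Lt.ci) hM0 [Lt.a, Lt.c, Lt.a, Lt.ci, Lt.ai] (hat (rf_9 hy) 0 rfl) h
  · exact lF_good (T := T) (x := Lt.ci) hM0 [Lt.t, Lt.c, Lt.bi, Lt.ti, Lt.b] (hat (rf_17 hy) 2 rfl) h
theorem dp_ci_2_s (hy : Hy g H)
    (j u : ℕ) (hu : u < M) (h : dp_ci_2 j u = true) : Gd g H Lt.ci u := by
  unfold dp_ci_2 at h
  rcases brec_true h with h | h
  · exact lF_good (T := T) (x := Lt.ci) hM0 [Lt.a, Lt.T, Lt.ai, Lt.c, Lt.Ti] (hat (rf_10 hy) 4 rfl) h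
  · exact lS_good (T := T) (x := Lt.ci) hM0 hu [Lt.c] (hat (rf_25 hy) 0 rfl) h
theorem dp_ci_3_s (hy : Hy g H)
    (j u : ℕ) (hu : u < M) (h : dp_ci_3 j u = true) : Gd g H Lt.ci u := by
  unfold dp_ci_3 at h
  rcases brec_true h with h | h
  · exact lF_good (T := T) (x := Lt.ci) hM0 [Lt.d, Lt.c, Lt.d, Lt.ci, Lt.di] (hat (rb_14 hy) 0 rfl) h
  · exact dp_ci_2_s hy j u hu h
theorem dp_ci_4_s (hy : Hy g H)
    (j u : ℕ) (hu : u < M) (h : dp_ci_4 j u = true) : Gd g H Lt.ci u := by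
  unfold dp_ci_4 at h
  rcases brec_true h with h | h
  · exact dp_ci_1_s hy j u hu h
  · exact dp_ci_3_s hy j u hu h
theorem dp_ci_5_s (hy : Hy g H)
    (j u : ℕ) (hu : u < M) (h : dp_ci_5 j u = true) : Gd g H Lt.ci u := by
  unfold dp_ci_5 at h
  rcases brec_true h with h | h
  · exact lF_good (T := T) (x := Lt.ci) hM0 [Lt.ti, Lt.c, Lt.bi, Lt.t, Lt.b] (hat (rb_17 hy) 3 rfl) h
  · exact lF_good (T := T) (x := Lt.ci) hM0 [Lt.T, Lt.c, Lt.a, Lt.Ti, Lt.ai] (hat (rb_19 hy) 3 rfl) h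
theorem dp_ci_6_s (hy : Hy g H)
    (j u : ℕ) (hu : u < M) (h : dp_ci_6 j u = true) : Gd g H Lt.ci u := by
  unfold dp_ci_6 at h
  rcases brec_true h with h | h
  · exact lF_good (T := T) (x := Lt.ci) hM0 [Lt.ai, Lt.c, Lt.a, Lt.c, Lt.ai] (hat (rb_9 hy) 5 rfl) h
  · exact lF_good (T := T) (x := Lt.ci) hM0 [Lt.a, Lt.Ti, Lt.ai, Lt.c, Lt.T] (hat (rb_10 hy) 5 rfl) h
theorem dp_ci_7_s (hy : Hy g H)
    (j u : ℕ) (hu : u < M) (h : dp_ci_7 j u = true) : Gd g H Lt.ci u := by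
  unfold dp_ci_7 at h
  rcases brec_true h with h | h
  · exact lF_good (T := T) (x := Lt.ci) hM0 [Lt.di, Lt.c, Lt.d, Lt.c, Lt.di] (hat (rf_14 hy) 5 rfl) h
  · exact dp_ci_6_s hy j u hu h
theorem dp_ci_8_s (hy : Hy g H)
    (j u : ℕ) (hu : u < M) (h : dp_ci_8 j u = true) : Gd g H Lt.ci u := by
  unfold dp_ci_8 at h
  rcases brec_true h with h | h
  · exact dp_ci_5_s hy j u hu h
  · exact dp_ci_7_s hy j u hu h
theorem dp_ci_9_s (hy : Hy g H)
    (j u : ℕ) (hu : u < M) (h : dp_ci_9 j u = true) : Gd g H Lt.ci u := by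
  unfold dp_ci_9 at h
  rcases brec_true h with h | h
  · exact lF_good (T := T) (x := Lt.ci) hM0 [Lt.Ti, Lt.c, Lt.a, Lt.T, Lt.ai] (hat (rf_19 hy) 2 rfl) h
  · exact lF_good (T := T) (x := Lt.ci) hM0 [Lt.bi, Lt.Ti, Lt.b, Lt.c, Lt.T] (hat (rf_18 hy) 4 rfl) h
theorem dp_ci_10_s (hy : Hy g H)
    (j u : ℕ) (hu : u < M) (h : dp_ci_10 j u = true) : Gd g H Lt.ci u := by
  unfold dp_ci_10 at h
  rcases brec_true h with h | h
  · exact lF_good (T := T) (x := Lt.ci) hM0 [Lt.bi, Lt.T, Lt.b, Lt.c, Lt.Ti] (hat (rb_18 hy) 5 rfl) h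
  · exact dp_ci_9_s hy j u hu h
theorem dp_ci_11_s (hy : Hy g H)
    (j u : ℕ) (hu : u < M) (h : dp_ci_11 j u = true) : Gd g H Lt.ci u := by
  unfold dp_ci_11 at h
  rcases brec_true h with h | h
  · exact lS_good (T := T) (x := Lt.ci) hM0 hu [Lt.d, Lt.c, Lt.d, Lt.ci, Lt.di] (hat (rb_14 hy) 0 rfl) h
  · exact lS_good (T := T) (x := Lt.ci) hM0 hu [Lt.di, Lt.ci, Lt.d, Lt.c, Lt.d] (hat (rb_14 hy) 4 rfl) h
theorem dp_ci_12_s (hy : Hy g H)
    (j u : ℕ) (hu : u < M) (h : dp_ci_12 j u = true) : Gd g H Lt.ci u := by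
  unfold dp_ci_12 at h
  rcases brec_true h with h | h
  · exact lS_good (T := T) (x := Lt.ci) hM0 hu [Lt.di, Lt.c, Lt.d, Lt.c, Lt.di] (hat (rf_14 hy) 5 rfl) h
  · exact lS_good (T := T) (x := Lt.ci) hM0 hu [Lt.a, Lt.c, Lt.a, Lt.ci, Lt.ai] (hat (rf_9 hy) 0 rfl) h
theorem dp_ci_13_s (hy : Hy g H)
    (j u : ℕ) (hu : u < M) (h : dp_ci_13 j u = true) : Gd g H Lt.ci u := by
  unfold dp_ci_13 at h
  rcases brec_true h with h | h
  · exact dp_ci_11_s hy j u hu h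
  · exact dp_ci_12_s hy j u hu h
theorem dp_ci_14_s (hy : Hy g H)
    (j u : ℕ) (hu : u < M) (h : dp_ci_14 j u = true) : Gd g H Lt.ci u := by
  unfold dp_ci_14 at h
  rcases brec_true h with h | h
  · exact lS_good (T := T) (x := Lt.ci) hM0 hu [Lt.ti, Lt.c, Lt.bi, Lt.t, Lt.b] (hat (rb_17 hy) 3 rfl) h
  · exact lS_good (T := T) (x := Lt.ci) hM0 hu [Lt.t, Lt.c, Lt.bi, Lt.ti, Lt.b] (hat (rf_17 hy) 2 rfl) h
theorem dp_ci_15_s (hy : Hy g H)
    (j u : ℕ) (hu : u < M) (h : dp_ci_15 j u = true) : Gd g H Lt.ci u := by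
  unfold dp_ci_15 at h
  rcases brec_true h with h | h
  · exact lS_good (T := T) (x := Lt.ci) hM0 hu [Lt.ai, Lt.ci, Lt.a, Lt.c, Lt.a] (hat (rf_9 hy) 4 rfl) h
  · exact dp_ci_14_s hy j u hu h
theorem dp_ci_16_s (hy : Hy g H)
    (j u : ℕ) (hu : u < M) (h : dp_ci_16 j u = true) : Gd g H Lt.ci u := by
  unfold dp_ci_16 at h
  rcases brec_true h with h | h
  · exact lS_good (T := T) (x := Lt.ci) hM0 hu [Lt.a, Lt.T, Lt.ai, Lt.c, Lt.Ti] (hat (rf_10 hy) 4 rfl) h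
  · exact lS_good (T := T) (x := Lt.ci) hM0 hu [Lt.zi, Lt.c, Lt.z] (hat (rb_3 hy) 3 rfl) h
theorem dp_ci_17_s (hy : Hy g H)
    (j u : ℕ) (hu : u < M) (h : dp_ci_17 j u = true) : Gd g H Lt.ci u := by
  unfold dp_ci_17 at h
  rcases brec_true h with h | h
  · exact lS_good (T := T) (x := Lt.ci) hM0 hu [Lt.T, Lt.c, Lt.a, Lt.Ti, Lt.ai] (hat (rb_19 hy) 3 rfl) h
  · exact lS_good (T := T) (x := Lt.ci) hM0 hu [Lt.z, Lt.c, Lt.zi] (hat (rf_3 hy) 0 rfl) h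
theorem dp_ci_18_s (hy : Hy g H)
    (j u : ℕ) (hu : u < M) (h : dp_ci_18 j u = true) : Gd g H Lt.ci u := by
  unfold dp_ci_18 at h
  rcases brec_true h with h | h
  · exact lS_good (T := T) (x := Lt.ci) hM0 hu [Lt.ai, Lt.c, Lt.a, Lt.c, Lt.ai] (hat (rb_9 hy) 5 rfl) h
  · exact lS_good (T := T) (x := Lt.ci) hM0 hu [Lt.bi, Lt.ai, Lt.bi, Lt.t, Lt.Ti, Lt.bi, Lt.di, Lt.ci, Lt.a, Lt.ti, Lt.ci, Lt.bi, Lt.ai, Lt.bi, Lt.t, Lt.Ti, Lt.bi, Lt.di, Lt.ci, Lt.a, Lt.ti, Lt.ci, Lt.bi, Lt.ai, Lt.bi, Lt.t, Lt.Ti, Lt.bi, Lt.di, Lt.ci, Lt.a, Lt.ti, Lt.ci, Lt.bi, Lt.ai, Lt.bi, Lt.t, Lt.Ti, Lt.z, Lt.bi, Lt.di, Lt.ci, Lt.a, Lt.ti] (hat (rb_20 hy) 7 rfl) h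
theorem dp_ci_19_s (hy : Hy g H)
    (j u : ℕ) (hu : u < M) (h : dp_ci_19 j u = true) : Gd g H Lt.ci u := by
  unfold dp_ci_19 at h
  rcases brec_true h with h | h
  · exact lS_good (T := T) (x := Lt.ci) hM0 hu [Lt.bi, Lt.Ti, Lt.b, Lt.c, Lt.T] (hat (rf_18 hy) 4 rfl) h
  · exact dp_ci_18_s hy j u hu h
theorem dp_ci_20_s (hy : Hy g H)
    (j u : ℕ) (hu : u < M) (h : dp_ci_20 j u = true) : Gd g H Lt.ci u := by
  unfold dp_ci_20 at h
  rcases brec_true h with h | h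
  · exact dp_ci_17_s hy j u hu h
  · exact dp_ci_19_s hy j u hu h
theorem dp_ci_21_s (hy : Hy g H)
    (j u : ℕ) (hu : u < M) (h : dp_ci_21 j u = true) : Gd g H Lt.ci u := by
  unfold dp_ci_21 at h
  rcases brec_true h with h | h
  · exact dp_ci_16_s hy j u hu h
  · exact dp_ci_20_s hy j u hu h
theorem dp_ci_22_s (hy : Hy g H)
    (j u : ℕ) (hu : u < M) (h : dp_ci_22 j u = true) : Gd g H Lt.ci u := by
  unfold dp_ci_22 at h
  rcases brec_true h with h | h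
  · exact dp_ci_15_s hy j u hu h
  · exact dp_ci_21_s hy j u hu h
theorem dp_ci_23_s (hy : Hy g H)
    (j u : ℕ) (hu : u < M) (h : dp_ci_23 j u = true) : Gd g H Lt.ci u := by
  unfold dp_ci_23 at h
  rcases brec_true h with h | h
  · exact dp_ci_13_s hy j u hu h
  · exact dp_ci_22_s hy j u hu h
theorem dp_ci_24_s (hy : Hy g H)
    (j u : ℕ) (hu : u < M) (h : dp_ci_24 j u = true) : Gd g H Lt.ci u := by
  unfold dp_ci_24 at h
  rcases brec_true h with h | h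
  · exact dp_ci_10_s hy j u hu h
  · exact dp_ci_23_s hy j u hu h
theorem dp_ci_25_s (hy : Hy g H)
    (j u : ℕ) (hu : u < M) (h : dp_ci_25 j u = true) : Gd g H Lt.ci u := by
  unfold dp_ci_25 at h
  rcases brec_true h with h | h
  · exact dp_ci_8_s hy j u hu h
  · exact dp_ci_24_s hy j u hu h
theorem dp_ci_26_s (hy : Hy g H)
    (j u : ℕ) (hu : u < M) (h : dp_ci_26 j u = true) : Gd g H Lt.ci u := by
  unfold dp_ci_26 at h
  rcases brec_true h with h | h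
  · exact dp_ci_4_s hy j u hu h
  · exact dp_ci_25_s hy j u hu h
theorem dp_ci_27_s (hy : Hy g H)
    (j u : ℕ) (hu : u < M) (h : dp_ci_27 j u = true) : Gd g H Lt.ci u := by
  unfold dp_ci_27 at h
  rcases brec_true h with h | h
  · rcases brec_true h with h | h
    · exact lDef_good (T := T) (x := Lt.ci) (by decide) rfl h
    · rcases brec_true h with h | h
      · exact lPar_good (T := T) (x := Lt.ci) (x' := Lt.c) (by decide) rfl (ivt hy _ _ rfl) h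
      · exact dp_ci_0_s hy j u hu h
  · exact dp_ci_26_s hy j u hu h
theorem snd_ci (hy : Hy g H)
    (j u : ℕ) (hu : u < M) (h : disp_ci j u = true) : Gd g H Lt.ci u := by
  unfold disp_ci at h
  rcases brec_true h with h | h
  · rcases brec_true h with h | h
    · exact lF1_good (T := T) (x := Lt.ci) hM0 .c (hat (rf_25 hy) 0 rfl) h
    · rcases brec_true h with h | h
      · exact lF3_good (T := T) (x := Lt.ci) hM0 .zi .c .z (hat (rb_3 hy) 3 rfl) h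
      · exact lF3_good (T := T) (x := Lt.ci) hM0 .z .c .zi (hat (rf_3 hy) 0 rfl) h
  · exact dp_ci_27_s hy j u hu h
theorem snc_ci (hy : Hy g H)
    (j u : ℕ) (hu : u < M) (h : chk_ci j u = true) : (T Lt.ci u < A ∧ Gd g H Lt.ci u) ∨ (A ≤ T Lt.ci u ∧ MG u < A) := by
  unfold chk_ci at h
  cases hb : Nat.ble A (T_ci u) with
  | true => rw [hb] at h; exact Or.inr ⟨le_of_ble hb, le_of_ble h⟩
  | false => rw [hb] at h; exact Or.inl ⟨lt_of_ble_false hb, snd_ci hy j u hu h⟩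
theorem dp_d_0_s (hy : Hy g H)
    (j u : ℕ) (hu : u < M) (h : dp_d_0 j u = true) : Gd g H Lt.d u := by
  unfold dp_d_0 at h
  rcases brec_true h with h | h
  · exact lF_good (T := T) (x := Lt.d) hM0 [Lt.Ti, Lt.ti, Lt.d, Lt.t, Lt.T] (hat (rf_11 hy) 3 rfl) h
  · exact lF_good (T := T) (x := Lt.d) hM0 [Lt.c, Lt.d, Lt.ci, Lt.di, Lt.ci] (hat (rb_14 hy) 1 rfl) h
theorem dp_d_1_s (hy : Hy g H)
    (j u : ℕ) (hu : u < M) (h : dp_d_1 j u = true) : Gd g H Lt.d u := by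
  unfold dp_d_1 at h
  rcases brec_true h with h | h
  · exact lF_good (T := T) (x := Lt.d) hM0 [Lt.bi, Lt.t, Lt.b, Lt.ti, Lt.b] (hat (rf_16 hy) 0 rfl) h
  · exact dp_d_0_s hy j u hu h
theorem dp_d_2_s (hy : Hy g H)
    (j u : ℕ) (hu : u < M) (h : dp_d_2 j u = true) : Gd g H Lt.d u := by
  unfold dp_d_2 at h
  rcases brec_true h with h | h
  · exact lF_good (T := T) (x := Lt.d) hM0 [Lt.ti, Lt.b, Lt.ti, Lt.bi, Lt.t] (hat (rb_15 hy) 4 rfl) h
  · exact lF_good (T := T) (x := Lt.d) hM0 [Lt.a, Lt.di, Lt.a, Lt.d, Lt.ai] (hat (rf_13 hy) 3 rfl) h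
theorem dp_d_3_s (hy : Hy g H)
    (j u : ℕ) (hu : u < M) (h : dp_d_3 j u = true) : Gd g H Lt.d u := by
  unfold dp_d_3 at h
  rcases brec_true h with h | h
  · exact lF_good (T := T) (x := Lt.d) hM0 [Lt.ci, Lt.di, Lt.ci, Lt.d, Lt.c] (hat (rb_14 hy) 3 rfl) h
  · exact lF_good (T := T) (x := Lt.d) hM0 [Lt.ai, Lt.d, Lt.a, Lt.di, Lt.a] (hat (rf_13 hy) 1 rfl) h
theorem dp_d_4_s (hy : Hy g H)
    (j u : ℕ) (hu : u < M) (h : dp_d_4 j u = true) : Gd g H Lt.d u := by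
  unfold dp_d_4 at h
  rcases brec_true h with h | h
  · exact dp_d_2_s hy j u hu h
  · exact dp_d_3_s hy j u hu h
theorem dp_d_5_s (hy : Hy g H)
    (j u : ℕ) (hu : u < M) (h : dp_d_5 j u = true) : Gd g H Lt.d u := by
  unfold dp_d_5 at h
  rcases brec_true h with h | h
  · exact lF_good (T := T) (x := Lt.d) hM0 [Lt.t, Lt.a, Lt.ti, Lt.di, Lt.a] (hat (rf_12 hy) 1 rfl) h
  · exact lF_good (T := T) (x := Lt.d) hM0 [Lt.t, Lt.ai, Lt.ti, Lt.di, Lt.ai] (hat (rb_12 hy) 2 rfl) h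
theorem dp_d_6_s (hy : Hy g H)
    (j u : ℕ) (hu : u < M) (h : dp_d_6 j u = true) : Gd g H Lt.d u := by
  unfold dp_d_6 at h
  rcases brec_true h with h | h
  · exact lF_good (T := T) (x := Lt.d) hM0 [Lt.c, Lt.di, Lt.ci, Lt.di, Lt.c] (hat (rf_14 hy) 2 rfl) h
  · exact dp_d_5_s hy j u hu h
theorem dp_d_7_s (hy : Hy g H)
    (j u : ℕ) (hu : u < M) (h : dp_d_7 j u = true) : Gd g H Lt.d u := by
  unfold dp_d_7 at h
  rcases brec_true h with h | h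
  · exact lS_good (T := T) (x := Lt.d) hM0 hu [Lt.di] (hat (rf_27 hy) 1 rfl) h
  · exact lF_good (T := T) (x := Lt.d) hM0 [Lt.t, Lt.T, Lt.d, Lt.Ti, Lt.ti] (hat (rf_11 hy) 0 rfl) h
theorem dp_d_8_s (hy : Hy g H)
    (j u : ℕ) (hu : u < M) (h : dp_d_8 j u = true) : Gd g H Lt.d u := by
  unfold dp_d_8 at h
  rcases brec_true h with h | h
  · exact lS_good (T := T) (x := Lt.d) hM0 hu [Lt.c, Lt.di, Lt.ci, Lt.di, Lt.c] (hat (rf_14 hy) 2 rfl) h
  · exact lS_good (T := T) (x := Lt.d) hM0 hu [Lt.ci, Lt.di, Lt.ci, Lt.d, Lt.c] (hat (rb_14 hy) 3 rfl) h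
theorem dp_d_9_s (hy : Hy g H)
    (j u : ℕ) (hu : u < M) (h : dp_d_9 j u = true) : Gd g H Lt.d u := by
  unfold dp_d_9 at h
  rcases brec_true h with h | h
  · exact lF_good (T := T) (x := Lt.d) hM0 [Lt.ai, Lt.di, Lt.a, Lt.di, Lt.ai] (hat (rb_13 hy) 2 rfl) h
  · exact dp_d_8_s hy j u hu h
theorem dp_d_10_s (hy : Hy g H)
    (j u : ℕ) (hu : u < M) (h : dp_d_10 j u = true) : Gd g H Lt.d u := by
  unfold dp_d_10 at h
  rcases brec_true h with h | h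
  · exact lS_good (T := T) (x := Lt.d) hM0 hu [Lt.ti, Lt.b, Lt.ti, Lt.bi, Lt.t] (hat (rb_15 hy) 4 rfl) h
  · exact lS_good (T := T) (x := Lt.d) hM0 hu [Lt.Ti, Lt.ti, Lt.d, Lt.t, Lt.T] (hat (rf_11 hy) 3 rfl) h
theorem dp_d_11_s (hy : Hy g H)
    (j u : ℕ) (hu : u < M) (h : dp_d_11 j u = true) : Gd g H Lt.d u := by
  unfold dp_d_11 at h
  rcases brec_true h with h | h
  · exact lS_good (T := T) (x := Lt.d) hM0 hu [Lt.c, Lt.d, Lt.ci, Lt.di, Lt.ci] (hat (rb_14 hy) 1 rfl) h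
  · exact dp_d_10_s hy j u hu h
theorem dp_d_12_s (hy : Hy g H)
    (j u : ℕ) (hu : u < M) (h : dp_d_12 j u = true) : Gd g H Lt.d u := by
  unfold dp_d_12 at h
  rcases brec_true h with h | h
  · exact lS_good (T := T) (x := Lt.d) hM0 hu [Lt.a, Lt.di, Lt.a, Lt.d, Lt.ai] (hat (rf_13 hy) 3 rfl) h
  · exact lS_good (T := T) (x := Lt.d) hM0 hu [Lt.bi, Lt.t, Lt.b, Lt.ti, Lt.b] (hat (rf_16 hy) 0 rfl) h
theorem dp_d_13_s (hy : Hy g H)
    (j u : ℕ) (hu : u < M) (h : dp_d_13 j u = true) : Gd g H Lt.d u := by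
  unfold dp_d_13 at h
  rcases brec_true h with h | h
  · exact lS_good (T := T) (x := Lt.d) hM0 hu [Lt.zi, Lt.di, Lt.z] (hat (rf_2 hy) 2 rfl) h
  · exact dp_d_12_s hy j u hu h
theorem dp_d_14_s (hy : Hy g H)
    (j u : ℕ) (hu : u < M) (h : dp_d_14 j u = true) : Gd g H Lt.d u := by
  unfold dp_d_14 at h
  rcases brec_true h with h | h
  · exact lS_good (T := T) (x := Lt.d) hM0 hu [Lt.ai, Lt.di, Lt.a, Lt.di, Lt.ai] (hat (rb_13 hy) 2 rfl) h
  · exact lS_good (T := T) (x := Lt.d) hM0 hu [Lt.ai, Lt.d, Lt.a, Lt.di, Lt.a] (hat (rf_13 hy) 1 rfl) h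
theorem dp_d_15_s (hy : Hy g H)
    (j u : ℕ) (hu : u < M) (h : dp_d_15 j u = true) : Gd g H Lt.d u := by
  unfold dp_d_15 at h
  rcases brec_true h with h | h
  · exact lS_good (T := T) (x := Lt.d) hM0 hu [Lt.t, Lt.a, Lt.ti, Lt.di, Lt.a] (hat (rf_12 hy) 1 rfl) h
  · exact lH_good (T := T) (x := Lt.d) hM0 [] [] (by rw [show cP g H 0 = _ from cc_zero]; exact sub_rel hy.1 (hy.2.2 _ (by decide))) h
theorem dp_d_16_s (hy : Hy g H)
    (j u : ℕ) (hu : u < M) (h : dp_d_16 j u = true) : Gd g H Lt.d u := by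
  unfold dp_d_16 at h
  rcases brec_true h with h | h
  · exact lS_good (T := T) (x := Lt.d) hM0 hu [Lt.z, Lt.di, Lt.zi] (hat (rb_2 hy) 1 rfl) h
  · exact lS_good (T := T) (x := Lt.d) hM0 hu [Lt.t, Lt.T, Lt.d, Lt.Ti, Lt.ti] (hat (rf_11 hy) 0 rfl) h
theorem dp_d_17_s (hy : Hy g H)
    (j u : ℕ) (hu : u < M) (h : dp_d_17 j u = true) : Gd g H Lt.d u := by
  unfold dp_d_17 at h
  rcases brec_true h with h | h
  · exact lS_good (T := T) (x := Lt.d) hM0 hu [Lt.t, Lt.ai, Lt.ti, Lt.di, Lt.ai] (hat (rb_12 hy) 2 rfl) h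
  · exact dp_d_16_s hy j u hu h
theorem dp_d_18_s (hy : Hy g H)
    (j u : ℕ) (hu : u < M) (h : dp_d_18 j u = true) : Gd g H Lt.d u := by
  unfold dp_d_18 at h
  rcases brec_true h with h | h
  · exact dp_d_15_s hy j u hu h
  · exact dp_d_17_s hy j u hu h
theorem dp_d_19_s (hy : Hy g H)
    (j u : ℕ) (hu : u < M) (h : dp_d_19 j u = true) : Gd g H Lt.d u := by
  unfold dp_d_19 at h
  rcases brec_true h with h | h
  · exact dp_d_14_s hy j u hu h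
  · exact dp_d_18_s hy j u hu h
theorem dp_d_20_s (hy : Hy g H)
    (j u : ℕ) (hu : u < M) (h : dp_d_20 j u = true) : Gd g H Lt.d u := by
  unfold dp_d_20 at h
  rcases brec_true h with h | h
  · exact dp_d_13_s hy j u hu h
  · exact dp_d_19_s hy j u hu h
theorem dp_d_21_s (hy : Hy g H)
    (j u : ℕ) (hu : u < M) (h : dp_d_21 j u = true) : Gd g H Lt.d u := by
  unfold dp_d_21 at h
  rcases brec_true h with h | h
  · exact dp_d_11_s hy j u hu h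
  · exact dp_d_20_s hy j u hu h
theorem dp_d_22_s (hy : Hy g H)
    (j u : ℕ) (hu : u < M) (h : dp_d_22 j u = true) : Gd g H Lt.d u := by
  unfold dp_d_22 at h
  rcases brec_true h with h | h
  · exact dp_d_9_s hy j u hu h
  · exact dp_d_21_s hy j u hu h
theorem dp_d_23_s (hy : Hy g H)
    (j u : ℕ) (hu : u < M) (h : dp_d_23 j u = true) : Gd g H Lt.d u := by
  unfold dp_d_23 at h
  rcases brec_true h with h | h
  · exact dp_d_7_s hy j u hu h
  · exact dp_d_22_s hy j u hu h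
theorem dp_d_24_s (hy : Hy g H)
    (j u : ℕ) (hu : u < M) (h : dp_d_24 j u = true) : Gd g H Lt.d u := by
  unfold dp_d_24 at h
  rcases brec_true h with h | h
  · exact dp_d_6_s hy j u hu h
  · exact dp_d_23_s hy j u hu h
theorem dp_d_25_s (hy : Hy g H)
    (j u : ℕ) (hu : u < M) (h : dp_d_25 j u = true) : Gd g H Lt.d u := by
  unfold dp_d_25 at h
  rcases brec_true h with h | h
  · exact dp_d_4_s hy j u hu h
  · exact dp_d_24_s hy j u hu h
theorem dp_d_26_s (hy : Hy g H)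
    (j u : ℕ) (hu : u < M) (h : dp_d_26 j u = true) : Gd g H Lt.d u := by
  unfold dp_d_26 at h
  rcases brec_true h with h | h
  · rcases brec_true h with h | h
    · rcases brec_true h with h | h
      · exact lF3_good (T := T) (x := Lt.d) hM0 .zi .di .z (hat (rf_2 hy) 2 rfl) h
      · exact lDef_good (T := T) (x := Lt.d) (by decide) rfl h
    · exact dp_d_1_s hy j u hu h
  · exact dp_d_25_s hy j u hu h
theorem snd_d (hy : Hy g H)
    (j u : ℕ) (hu : u < M) (h : disp_d j u = true) : Gd g H Lt.d u := by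
  unfold disp_d at h
  rcases brec_true h with h | h
  · rcases brec_true h with h | h
    · exact lF1_good (T := T) (x := Lt.d) hM0 .di (hat (rf_27 hy) 1 rfl) h
    · rcases brec_true h with h | h
      · exact lF3_good (T := T) (x := Lt.d) hM0 .z .di .zi (hat (rb_2 hy) 1 rfl) h
      · exact lPar_good (T := T) (x := Lt.d) (x' := Lt.di) (by decide) rfl (ivt hy _ _ rfl) h
  · exact dp_d_26_s hy j u hu h
theorem snc_d (hy : Hy g H)
    (j u : ℕ) (hu : u < M) (h : chk_d j u = true) : (T Lt.d u < A ∧ Gd g H Lt.d u) ∨ (A ≤ T Lt.d u ∧ MG u < A) := by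
  unfold chk_d at h
  cases hb : Nat.ble A (T_d u) with
  | true => rw [hb] at h; exact Or.inr ⟨le_of_ble hb, le_of_ble h⟩
  | false => rw [hb] at h; exact Or.inl ⟨lt_of_ble_false hb, snd_d hy j u hu h⟩
theorem dp_di_0_s (hy : Hy g H)
    (j u : ℕ) (hu : u < M) (h : dp_di_0 j u = true) : Gd g H Lt.di u := by
  unfold dp_di_0 at h
  rcases brec_true h with h | h
  · exact lPar_good (T := T) (x := Lt.di) (x' := Lt.d) (by decide) rfl (ivt hy _ _ rfl) h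
  · exact lF_good (T := T) (x := Lt.di) hM0 [Lt.bi, Lt.t, Lt.bi, Lt.ti, Lt.b] (hat (rb_16 hy) 1 rfl) h
theorem dp_di_1_s (hy : Hy g H)
    (j u : ℕ) (hu : u < M) (h : dp_di_1 j u = true) : Gd g H Lt.di u := by
  unfold dp_di_1 at h
  rcases brec_true h with h | h
  · exact lF_good (T := T) (x := Lt.di) hM0 [Lt.Ti, Lt.ti, Lt.di, Lt.t, Lt.T] (hat (rb_11 hy) 4 rfl) h
  · exact lF_good (T := T) (x := Lt.di) hM0 [Lt.c, Lt.d, Lt.c, Lt.di, Lt.ci] (hat (rf_14 hy) 0 rfl) h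
theorem dp_di_2_s (hy : Hy g H)
    (j u : ℕ) (hu : u < M) (h : dp_di_2 j u = true) : Gd g H Lt.di u := by
  unfold dp_di_2 at h
  rcases brec_true h with h | h
  · exact lF_good (T := T) (x := Lt.di) hM0 [Lt.ci, Lt.di, Lt.c, Lt.d, Lt.c] (hat (rf_14 hy) 4 rfl) h
  · exact lF_good (T := T) (x := Lt.di) hM0 [Lt.ci, Lt.d, Lt.c, Lt.d, Lt.ci] (hat (rb_14 hy) 5 rfl) h
theorem dp_di_3_s (hy : Hy g H)
    (j u : ℕ) (hu : u < M) (h : dp_di_3 j u = true) : Gd g H Lt.di u := by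
  unfold dp_di_3 at h
  rcases brec_true h with h | h
  · exact lF_good (T := T) (x := Lt.di) hM0 [Lt.ti, Lt.b, Lt.t, Lt.bi, Lt.t] (hat (rf_15 hy) 3 rfl) h
  · exact dp_di_2_s hy j u hu h
theorem dp_di_4_s (hy : Hy g H)
    (j u : ℕ) (hu : u < M) (h : dp_di_4 j u = true) : Gd g H Lt.di u := by
  unfold dp_di_4 at h
  rcases brec_true h with h | h
  · exact lF_good (T := T) (x := Lt.di) hM0 [Lt.a, Lt.di, Lt.ai, Lt.d, Lt.ai] (hat (rb_13 hy) 4 rfl) h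
  · exact lF_good (T := T) (x := Lt.di) hM0 [Lt.ai, Lt.d, Lt.ai, Lt.di, Lt.a] (hat (rb_13 hy) 0 rfl) h
theorem dp_di_5_s (hy : Hy g H)
    (j u : ℕ) (hu : u < M) (h : dp_di_5 j u = true) : Gd g H Lt.di u := by
  unfold dp_di_5 at h
  rcases brec_true h with h | h
  · exact lS_good (T := T) (x := Lt.di) hM0 hu [Lt.d] (hat (rf_27 hy) 0 rfl) h
  · exact lF_good (T := T) (x := Lt.di) hM0 [Lt.ai, Lt.d, Lt.t, Lt.ai, Lt.ti] (hat (rb_12 hy) 0 rfl) h
theorem dp_di_6_s (hy : Hy g H)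
    (j u : ℕ) (hu : u < M) (h : dp_di_6 j u = true) : Gd g H Lt.di u := by
  unfold dp_di_6 at h
  rcases brec_true h with h | h
  · exact dp_di_4_s hy j u hu h
  · exact dp_di_5_s hy j u hu h
theorem dp_di_7_s (hy : Hy g H)
    (j u : ℕ) (hu : u < M) (h : dp_di_7 j u = true) : Gd g H Lt.di u := by
  unfold dp_di_7 at h
  rcases brec_true h with h | h
  · exact lF_good (T := T) (x := Lt.di) hM0 [Lt.a, Lt.d, Lt.t, Lt.a, Lt.ti] (hat (rf_12 hy) 5 rfl) h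
  · exact lF_good (T := T) (x := Lt.di) hM0 [Lt.t, Lt.T, Lt.di, Lt.Ti, Lt.ti] (hat (rb_11 hy) 1 rfl) h
theorem dp_di_8_s (hy : Hy g H)
    (j u : ℕ) (hu : u < M) (h : dp_di_8 j u = true) : Gd g H Lt.di u := by
  unfold dp_di_8 at h
  rcases brec_true h with h | h
  · exact lS_good (T := T) (x := Lt.di) hM0 hu [Lt.ti, Lt.b, Lt.t, Lt.bi, Lt.t] (hat (rf_15 hy) 3 rfl) h
  · exact lS_good (T := T) (x := Lt.di) hM0 hu [Lt.c, Lt.d, Lt.c, Lt.di, Lt.ci] (hat (rf_14 hy) 0 rfl) h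
theorem dp_di_9_s (hy : Hy g H)
    (j u : ℕ) (hu : u < M) (h : dp_di_9 j u = true) : Gd g H Lt.di u := by
  unfold dp_di_9 at h
  rcases brec_true h with h | h
  · exact lF_good (T := T) (x := Lt.di) hM0 [Lt.a, Lt.d, Lt.ai, Lt.d, Lt.a] (hat (rf_13 hy) 5 rfl) h
  · exact dp_di_8_s hy j u hu h
theorem dp_di_10_s (hy : Hy g H)
    (j u : ℕ) (hu : u < M) (h : dp_di_10 j u = true) : Gd g H Lt.di u := by
  unfold dp_di_10 at h
  rcases brec_true h with h | h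
  · exact lS_good (T := T) (x := Lt.di) hM0 hu [Lt.ci, Lt.di, Lt.c, Lt.d, Lt.c] (hat (rf_14 hy) 4 rfl) h
  · exact lS_good (T := T) (x := Lt.di) hM0 hu [Lt.ci, Lt.d, Lt.c, Lt.d, Lt.ci] (hat (rb_14 hy) 5 rfl) h
theorem dp_di_11_s (hy : Hy g H)
    (j u : ℕ) (hu : u < M) (h : dp_di_11 j u = true) : Gd g H Lt.di u := by
  unfold dp_di_11 at h
  rcases brec_true h with h | h
  · exact lS_good (T := T) (x := Lt.di) hM0 hu [Lt.ai, Lt.d, Lt.t, Lt.ai, Lt.ti] (hat (rb_12 hy) 0 rfl) h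
  · exact lS_good (T := T) (x := Lt.di) hM0 hu [Lt.zi, Lt.d, Lt.z] (hat (rb_2 hy) 3 rfl) h
theorem dp_di_12_s (hy : Hy g H)
    (j u : ℕ) (hu : u < M) (h : dp_di_12 j u = true) : Gd g H Lt.di u := by
  unfold dp_di_12 at h
  rcases brec_true h with h | h
  · exact dp_di_10_s hy j u hu h
  · exact dp_di_11_s hy j u hu h
theorem dp_di_13_s (hy : Hy g H)
    (j u : ℕ) (hu : u < M) (h : dp_di_13 j u = true) : Gd g H Lt.di u := by
  unfold dp_di_13 at h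
  rcases brec_true h with h | h
  · exact lS_good (T := T) (x := Lt.di) hM0 hu [Lt.bi, Lt.t, Lt.bi, Lt.ti, Lt.b] (hat (rb_16 hy) 1 rfl) h
  · exact lS_good (T := T) (x := Lt.di) hM0 hu [Lt.Ti, Lt.ti, Lt.di, Lt.t, Lt.T] (hat (rb_11 hy) 4 rfl) h
theorem dp_di_14_s (hy : Hy g H)
    (j u : ℕ) (hu : u < M) (h : dp_di_14 j u = true) : Gd g H Lt.di u := by
  unfold dp_di_14 at h
  rcases brec_true h with h | h
  · exact lS_good (T := T) (x := Lt.di) hM0 hu [Lt.ai, Lt.d, Lt.ai, Lt.di, Lt.a] (hat (rb_13 hy) 0 rfl) h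
  · exact dp_di_13_s hy j u hu h
theorem dp_di_15_s (hy : Hy g H)
    (j u : ℕ) (hu : u < M) (h : dp_di_15 j u = true) : Gd g H Lt.di u := by
  unfold dp_di_15 at h
  rcases brec_true h with h | h
  · exact lS_good (T := T) (x := Lt.di) hM0 hu [Lt.a, Lt.di, Lt.ai, Lt.d, Lt.ai] (hat (rb_13 hy) 4 rfl) h
  · exact lS_good (T := T) (x := Lt.di) hM0 hu [Lt.a, Lt.d, Lt.t, Lt.a, Lt.ti] (hat (rf_12 hy) 5 rfl) h
theorem dp_di_16_s (hy : Hy g H)
    (j u : ℕ) (hu : u < M) (h : dp_di_16 j u = true) : Gd g H Lt.di u := by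
  unfold dp_di_16 at h
  rcases brec_true h with h | h
  · exact lS_good (T := T) (x := Lt.di) hM0 hu [Lt.t, Lt.T, Lt.di, Lt.Ti, Lt.ti] (hat (rb_11 hy) 1 rfl) h
  · exact lS_good (T := T) (x := Lt.di) hM0 hu [Lt.a, Lt.d, Lt.ai, Lt.d, Lt.a] (hat (rf_13 hy) 5 rfl) h
theorem dp_di_17_s (hy : Hy g H)
    (j u : ℕ) (hu : u < M) (h : dp_di_17 j u = true) : Gd g H Lt.di u := by
  unfold dp_di_17 at h
  rcases brec_true h with h | h
  · exact lS_good (T := T) (x := Lt.di) hM0 hu [Lt.z, Lt.d, Lt.zi] (hat (rf_2 hy) 0 rfl) h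
  · exact dp_di_16_s hy j u hu h
theorem dp_di_18_s (hy : Hy g H)
    (j u : ℕ) (hu : u < M) (h : dp_di_18 j u = true) : Gd g H Lt.di u := by
  unfold dp_di_18 at h
  rcases brec_true h with h | h
  · exact dp_di_15_s hy j u hu h
  · exact dp_di_17_s hy j u hu h
theorem dp_di_19_s (hy : Hy g H)
    (j u : ℕ) (hu : u < M) (h : dp_di_19 j u = true) : Gd g H Lt.di u := by
  unfold dp_di_19 at h
  rcases brec_true h with h | h
  · exact dp_di_14_s hy j u hu h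
  · exact dp_di_18_s hy j u hu h
theorem dp_di_20_s (hy : Hy g H)
    (j u : ℕ) (hu : u < M) (h : dp_di_20 j u = true) : Gd g H Lt.di u := by
  unfold dp_di_20 at h
  rcases brec_true h with h | h
  · exact dp_di_12_s hy j u hu h
  · exact dp_di_19_s hy j u hu h
theorem dp_di_21_s (hy : Hy g H)
    (j u : ℕ) (hu : u < M) (h : dp_di_21 j u = true) : Gd g H Lt.di u := by
  unfold dp_di_21 at h
  rcases brec_true h with h | h
  · exact dp_di_9_s hy j u hu h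
  · exact dp_di_20_s hy j u hu h
theorem dp_di_22_s (hy : Hy g H)
    (j u : ℕ) (hu : u < M) (h : dp_di_22 j u = true) : Gd g H Lt.di u := by
  unfold dp_di_22 at h
  rcases brec_true h with h | h
  · exact dp_di_7_s hy j u hu h
  · exact dp_di_21_s hy j u hu h
theorem dp_di_23_s (hy : Hy g H)
    (j u : ℕ) (hu : u < M) (h : dp_di_23 j u = true) : Gd g H Lt.di u := by
  unfold dp_di_23 at h
  rcases brec_true h with h | h
  · exact dp_di_6_s hy j u hu h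
  · exact dp_di_22_s hy j u hu h
theorem dp_di_24_s (hy : Hy g H)
    (j u : ℕ) (hu : u < M) (h : dp_di_24 j u = true) : Gd g H Lt.di u := by
  unfold dp_di_24 at h
  rcases brec_true h with h | h
  · rcases brec_true h with h | h
    · exact dp_di_1_s hy j u hu h
    · exact dp_di_3_s hy j u hu h
  · exact dp_di_23_s hy j u hu h
theorem snd_di (hy : Hy g H)
    (j u : ℕ) (hu : u < M) (h : disp_di j u = true) : Gd g H Lt.di u := by
  unfold disp_di at h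
  rcases brec_true h with h | h
  · rcases brec_true h with h | h
    · exact lF1_good (T := T) (x := Lt.di) hM0 .d (hat (rf_27 hy) 0 rfl) h
    · exact lF3_good (T := T) (x := Lt.di) hM0 .zi .d .z (hat (rb_2 hy) 3 rfl) h
  · rcases brec_true h with h | h
    · rcases brec_true h with h | h
      · rcases brec_true h with h | h
        · exact lDef_good (T := T) (x := Lt.di) (by decide) rfl h
        · exact lF3_good (T := T) (x := Lt.di) hM0 .z .d .zi (hat (rf_2 hy) 0 rfl) h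
      · exact dp_di_0_s hy j u hu h
    · exact dp_di_24_s hy j u hu h
theorem snc_di (hy : Hy g H)
    (j u : ℕ) (hu : u < M) (h : chk_di j u = true) : (T Lt.di u < A ∧ Gd g H Lt.di u) ∨ (A ≤ T Lt.di u ∧ MG u < A) := by
  unfold chk_di at h
  cases hb : Nat.ble A (T_di u) with
  | true => rw [hb] at h; exact Or.inr ⟨le_of_ble hb, le_of_ble h⟩
  | false => rw [hb] at h; exact Or.inl ⟨lt_of_ble_false hb, snd_di hy j u hu h⟩
theorem dp_t_0_s (hy : Hy g H)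
    (j u : ℕ) (hu : u < M) (h : dp_t_0 j u = true) : Gd g H Lt.t u := by
  unfold dp_t_0 at h
  rcases brec_true h with h | h
  · exact lF_good (T := T) (x := Lt.t) hM0 [Lt.bi, Lt.t, Lt.di, Lt.ti, Lt.b] (hat (rf_15 hy) 0 rfl) h
  · exact lF_good (T := T) (x := Lt.t) hM0 [Lt.c, Lt.bi, Lt.ti, Lt.b, Lt.ci] (hat (rf_17 hy) 3 rfl) h
theorem dp_t_1_s (hy : Hy g H)
    (j u : ℕ) (hu : u < M) (h : dp_t_1 j u = true) : Gd g H Lt.t u := by
  unfold dp_t_1 at h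
  rcases brec_true h with h | h
  · exact lDef_good (T := T) (x := Lt.t) (by decide) rfl h
  · exact lF_good (T := T) (x := Lt.t) hM0 [Lt.ai, Lt.ti, Lt.di, Lt.ai, Lt.d] (hat (rb_12 hy) 3 rfl) h
theorem dp_t_2_s (hy : Hy g H)
    (j u : ℕ) (hu : u < M) (h : dp_t_2 j u = true) : Gd g H Lt.t u := by
  unfold dp_t_2 at h
  rcases brec_true h with h | h
  · exact lF_good (T := T) (x := Lt.t) hM0 [Lt.Ti, Lt.t, Lt.T, Lt.ti, Lt.T] (hat (rf_7 hy) 4 rfl) h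
  · exact lF_good (T := T) (x := Lt.t) hM0 [Lt.a, Lt.ti, Lt.di, Lt.a, Lt.d] (hat (rf_12 hy) 2 rfl) h
theorem dp_t_3_s (hy : Hy g H)
    (j u : ℕ) (hu : u < M) (h : dp_t_3 j u = true) : Gd g H Lt.t u := by
  unfold dp_t_3 at h
  rcases brec_true h with h | h
  · exact lF_good (T := T) (x := Lt.t) hM0 [Lt.Ti, Lt.ti, Lt.T, Lt.ti, Lt.Ti] (hat (rb_7 hy) 5 rfl) h
  · exact dp_t_2_s hy j u hu h
theorem dp_t_4_s (hy : Hy g H)
    (j u : ℕ) (hu : u < M) (h : dp_t_4 j u = true) : Gd g H Lt.t u := by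
  unfold dp_t_4 at h
  rcases brec_true h with h | h
  · exact lF_good (T := T) (x := Lt.t) hM0 [Lt.T, Lt.di, Lt.Ti, Lt.ti, Lt.di] (hat (rb_11 hy) 2 rfl) h
  · exact lF_good (T := T) (x := Lt.t) hM0 [Lt.di, Lt.ti, Lt.b, Lt.t, Lt.bi] (hat (rf_15 hy) 2 rfl) h
theorem dp_t_5_s (hy : Hy g H)
    (j u : ℕ) (hu : u < M) (h : dp_t_5 j u = true) : Gd g H Lt.t u := by
  unfold dp_t_5 at h
  rcases brec_true h with h | h
  · exact lF_good (T := T) (x := Lt.t) hM0 [Lt.T, Lt.ti, Lt.T, Lt.t, Lt.Ti] (hat (rf_7 hy) 0 rfl) h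
  · exact lF_good (T := T) (x := Lt.t) hM0 [Lt.T, Lt.d, Lt.Ti, Lt.ti, Lt.d] (hat (rf_11 hy) 1 rfl) h
theorem dp_t_6_s (hy : Hy g H)
    (j u : ℕ) (hu : u < M) (h : dp_t_6 j u = true) : Gd g H Lt.t u := by
  unfold dp_t_6 at h
  rcases brec_true h with h | h
  · exact dp_t_4_s hy j u hu h
  · exact dp_t_5_s hy j u hu h
theorem dp_t_7_s (hy : Hy g H)
    (j u : ℕ) (hu : u < M) (h : dp_t_7 j u = true) : Gd g H Lt.t u := by
  unfold dp_t_7 at h
  rcases brec_true h with h | h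
  · exact lF_good (T := T) (x := Lt.t) hM0 [Lt.d, Lt.ti, Lt.b, Lt.ti, Lt.bi] (hat (rb_15 hy) 3 rfl) h
  · exact lF_good (T := T) (x := Lt.t) hM0 [Lt.b, Lt.ti, Lt.b, Lt.d, Lt.bi] (hat (rf_16 hy) 2 rfl) h
theorem dp_t_8_s (hy : Hy g H)
    (j u : ℕ) (hu : u < M) (h : dp_t_8 j u = true) : Gd g H Lt.t u := by
  unfold dp_t_8 at h
  rcases brec_true h with h | h
  · exact lS_good (T := T) (x := Lt.t) hM0 hu [Lt.ti] (hat (rf_29 hy) 1 rfl) h
  · exact dp_t_7_s hy j u hu h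
theorem dp_t_9_s (hy : Hy g H)
    (j u : ℕ) (hu : u < M) (h : dp_t_9 j u = true) : Gd g H Lt.t u := by
  unfold dp_t_9 at h
  rcases brec_true h with h | h
  · exact lF_good (T := T) (x := Lt.t) hM0 [Lt.bi, Lt.ti, Lt.b, Lt.di, Lt.bi] (hat (rb_16 hy) 3 rfl) h
  · exact lS_good (T := T) (x := Lt.t) hM0 hu [Lt.c, Lt.bi, Lt.ti, Lt.b, Lt.ci] (hat (rf_17 hy) 3 rfl) h
theorem dp_t_10_s (hy : Hy g H)
    (j u : ℕ) (hu : u < M) (h : dp_t_10 j u = true) : Gd g H Lt.t u := by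
  unfold dp_t_10 at h
  rcases brec_true h with h | h
  · exact lF_good (T := T) (x := Lt.t) hM0 [Lt.b, Lt.ci, Lt.ti, Lt.c, Lt.bi] (hat (rb_17 hy) 1 rfl) h
  · exact dp_t_9_s hy j u hu h
theorem dp_t_11_s (hy : Hy g H)
    (j u : ℕ) (hu : u < M) (h : dp_t_11 j u = true) : Gd g H Lt.t u := by
  unfold dp_t_11 at h
  rcases brec_true h with h | h
  · exact lS_good (T := T) (x := Lt.t) hM0 hu [Lt.ai, Lt.ti, Lt.di, Lt.ai, Lt.d] (hat (rb_12 hy) 3 rfl) h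
  · exact lS_good (T := T) (x := Lt.t) hM0 hu [Lt.bi, Lt.ti, Lt.b, Lt.di, Lt.bi] (hat (rb_16 hy) 3 rfl) h
theorem dp_t_12_s (hy : Hy g H)
    (j u : ℕ) (hu : u < M) (h : dp_t_12 j u = true) : Gd g H Lt.t u := by
  unfold dp_t_12 at h
  rcases brec_true h with h | h
  · exact lS_good (T := T) (x := Lt.t) hM0 hu [Lt.Ti, Lt.t, Lt.T, Lt.ti, Lt.T] (hat (rf_7 hy) 4 rfl) h
  · exact dp_t_11_s hy j u hu h
theorem dp_t_13_s (hy : Hy g H)
    (j u : ℕ) (hu : u < M) (h : dp_t_13 j u = true) : Gd g H Lt.t u := by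
  unfold dp_t_13 at h
  rcases brec_true h with h | h
  · exact lS_good (T := T) (x := Lt.t) hM0 hu [Lt.bi, Lt.t, Lt.di, Lt.ti, Lt.b] (hat (rf_15 hy) 0 rfl) h
  · exact lS_good (T := T) (x := Lt.t) hM0 hu [Lt.a, Lt.ti, Lt.di, Lt.a, Lt.d] (hat (rf_12 hy) 2 rfl) h
theorem dp_t_14_s (hy : Hy g H)
    (j u : ℕ) (hu : u < M) (h : dp_t_14 j u = true) : Gd g H Lt.t u := by
  unfold dp_t_14 at h
  rcases brec_true h with h | h
  · exact lS_good (T := T) (x := Lt.t) hM0 hu [Lt.Ti, Lt.ti, Lt.T, Lt.ti, Lt.Ti] (hat (rb_7 hy) 5 rfl) h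
  · exact lS_good (T := T) (x := Lt.t) hM0 hu [Lt.b, Lt.ti, Lt.b, Lt.d, Lt.bi] (hat (rf_16 hy) 2 rfl) h
theorem dp_t_15_s (hy : Hy g H)
    (j u : ℕ) (hu : u < M) (h : dp_t_15 j u = true) : Gd g H Lt.t u := by
  unfold dp_t_15 at h
  rcases brec_true h with h | h
  · exact lS_good (T := T) (x := Lt.t) hM0 hu [Lt.z, Lt.ti, Lt.zi] (hat (rb_1 hy) 1 rfl) h
  · exact lS_good (T := T) (x := Lt.t) hM0 hu [Lt.T, Lt.d, Lt.Ti, Lt.ti, Lt.d] (hat (rf_11 hy) 1 rfl) h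
theorem dp_t_16_s (hy : Hy g H)
    (j u : ℕ) (hu : u < M) (h : dp_t_16 j u = true) : Gd g H Lt.t u := by
  unfold dp_t_16 at h
  rcases brec_true h with h | h
  · exact lH_good (T := T) (x := Lt.t) hM0 [] [] (by rw [show cP g H 0 = _ from cc_zero]; exact sub_rel hy.1 (hy.2.2 _ (by decide))) h
  · exact dp_t_15_s hy j u hu h
theorem dp_t_17_s (hy : Hy g H)
    (j u : ℕ) (hu : u < M) (h : dp_t_17 j u = true) : Gd g H Lt.t u := by
  unfold dp_t_17 at h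
  rcases brec_true h with h | h
  · exact lS_good (T := T) (x := Lt.t) hM0 hu [Lt.T, Lt.ti, Lt.T, Lt.t, Lt.Ti] (hat (rf_7 hy) 0 rfl) h
  · exact dp_t_16_s hy j u hu h
theorem dp_t_18_s (hy : Hy g H)
    (j u : ℕ) (hu : u < M) (h : dp_t_18 j u = true) : Gd g H Lt.t u := by
  unfold dp_t_18 at h
  rcases brec_true h with h | h
  · exact dp_t_14_s hy j u hu h
  · exact dp_t_17_s hy j u hu h
theorem dp_t_19_s (hy : Hy g H)
    (j u : ℕ) (hu : u < M) (h : dp_t_19 j u = true) : Gd g H Lt.t u := by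
  unfold dp_t_19 at h
  rcases brec_true h with h | h
  · exact dp_t_13_s hy j u hu h
  · exact dp_t_18_s hy j u hu h
theorem dp_t_20_s (hy : Hy g H)
    (j u : ℕ) (hu : u < M) (h : dp_t_20 j u = true) : Gd g H Lt.t u := by
  unfold dp_t_20 at h
  rcases brec_true h with h | h
  · exact dp_t_12_s hy j u hu h
  · exact dp_t_19_s hy j u hu h
theorem dp_t_21_s (hy : Hy g H)
    (j u : ℕ) (hu : u < M) (h : dp_t_21 j u = true) : Gd g H Lt.t u := by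
  unfold dp_t_21 at h
  rcases brec_true h with h | h
  · exact dp_t_10_s hy j u hu h
  · exact dp_t_20_s hy j u hu h
theorem dp_t_22_s (hy : Hy g H)
    (j u : ℕ) (hu : u < M) (h : dp_t_22 j u = true) : Gd g H Lt.t u := by
  unfold dp_t_22 at h
  rcases brec_true h with h | h
  · exact dp_t_8_s hy j u hu h
  · exact dp_t_21_s hy j u hu h
theorem dp_t_23_s (hy : Hy g H)
    (j u : ℕ) (hu : u < M) (h : dp_t_23 j u = true) : Gd g H Lt.t u := by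
  unfold dp_t_23 at h
  rcases brec_true h with h | h
  · exact dp_t_6_s hy j u hu h
  · exact dp_t_22_s hy j u hu h
theorem dp_t_24_s (hy : Hy g H)
    (j u : ℕ) (hu : u < M) (h : dp_t_24 j u = true) : Gd g H Lt.t u := by
  unfold dp_t_24 at h
  rcases brec_true h with h | h
  · rcases brec_true h with h | h
    · exact dp_t_1_s hy j u hu h
    · exact dp_t_3_s hy j u hu h
  · exact dp_t_23_s hy j u hu h
theorem snd_t (hy : Hy g H)
    (j u : ℕ) (hu : u < M) (h : disp_t j u = true) : Gd g H Lt.t u := by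
  unfold disp_t at h
  rcases brec_true h with h | h
  · rcases brec_true h with h | h
    · exact lF1_good (T := T) (x := Lt.t) hM0 .ti (hat (rf_29 hy) 1 rfl) h
    · exact lF3_good (T := T) (x := Lt.t) hM0 .zi .ti .z (hat (rf_1 hy) 2 rfl) h
  · rcases brec_true h with h | h
    · rcases brec_true h with h | h
      · rcases brec_true h with h | h
        · exact lF3_good (T := T) (x := Lt.t) hM0 .z .ti .zi (hat (rb_1 hy) 1 rfl) h
        · exact lPar_good (T := T) (x := Lt.t) (x' := Lt.ti) (by decide) rfl (ivt hy _ _ rfl) h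
      · exact dp_t_0_s hy j u hu h
    · exact dp_t_24_s hy j u hu h
theorem snc_t (hy : Hy g H)
    (j u : ℕ) (hu : u < M) (h : chk_t j u = true) : (T Lt.t u < A ∧ Gd g H Lt.t u) ∨ (A ≤ T Lt.t u ∧ MG u < A) := by
  unfold chk_t at h
  cases hb : Nat.ble A (T_t u) with
  | true => rw [hb] at h; exact Or.inr ⟨le_of_ble hb, le_of_ble h⟩
  | false => rw [hb] at h; exact Or.inl ⟨lt_of_ble_false hb, snd_t hy j u hu h⟩
theorem dp_ti_0_s (hy : Hy g H)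
    (j u : ℕ) (hu : u < M) (h : dp_ti_0 j u = true) : Gd g H Lt.ti u := by
  unfold dp_ti_0 at h
  rcases brec_true h with h | h
  · exact lF_good (T := T) (x := Lt.ti) hM0 [Lt.bi, Lt.t, Lt.d, Lt.ti, Lt.b] (hat (rb_15 hy) 1 rfl) h
  · exact lPar_good (T := T) (x := Lt.ti) (x' := Lt.t) (by decide) rfl (ivt hy _ _ rfl) h
theorem dp_ti_1_s (hy : Hy g H)
    (j u : ℕ) (hu : u < M) (h : dp_ti_1 j u = true) : Gd g H Lt.ti u := by
  unfold dp_ti_1 at h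
  rcases brec_true h with h | h
  · exact lF_good (T := T) (x := Lt.ti) hM0 [Lt.di, Lt.a, Lt.d, Lt.t, Lt.a] (hat (rf_12 hy) 4 rfl) h
  · exact lF_good (T := T) (x := Lt.ti) hM0 [Lt.T, Lt.t, Lt.Ti, Lt.t, Lt.T] (hat (rf_7 hy) 2 rfl) h
theorem dp_ti_2_s (hy : Hy g H)
    (j u : ℕ) (hu : u < M) (h : dp_ti_2 j u = true) : Gd g H Lt.ti u := by
  unfold dp_ti_2 at h
  rcases brec_true h with h | h
  · exact lF_good (T := T) (x := Lt.ti) hM0 [Lt.di, Lt.ai, Lt.d, Lt.t, Lt.ai] (hat (rb_12 hy) 5 rfl) h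
  · exact lF_good (T := T) (x := Lt.ti) hM0 [Lt.T, Lt.ti, Lt.Ti, Lt.t, Lt.Ti] (hat (rb_7 hy) 1 rfl) h
theorem dp_ti_3_s (hy : Hy g H)
    (j u : ℕ) (hu : u < M) (h : dp_ti_3 j u = true) : Gd g H Lt.ti u := by
  unfold dp_ti_3 at h
  rcases brec_true h with h | h
  · exact lF_good (T := T) (x := Lt.ti) hM0 [Lt.d, Lt.t, Lt.T, Lt.d, Lt.Ti] (hat (rf_11 hy) 5 rfl) h
  · exact dp_ti_2_s hy j u hu h
theorem dp_ti_4_s (hy : Hy g H)
    (j u : ℕ) (hu : u < M) (h : dp_ti_4 j u = true) : Gd g H Lt.ti u := by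
  unfold dp_ti_4 at h
  rcases brec_true h with h | h
  · exact dp_ti_1_s hy j u hu h
  · exact dp_ti_3_s hy j u hu h
theorem dp_ti_5_s (hy : Hy g H)
    (j u : ℕ) (hu : u < M) (h : dp_ti_5 j u = true) : Gd g H Lt.ti u := by
  unfold dp_ti_5 at h
  rcases brec_true h with h | h
  · exact lF_good (T := T) (x := Lt.ti) hM0 [Lt.Ti, Lt.t, Lt.Ti, Lt.ti, Lt.T] (hat (rb_7 hy) 3 rfl) h
  · exact lF_good (T := T) (x := Lt.ti) hM0 [Lt.di, Lt.t, Lt.T, Lt.di, Lt.Ti] (hat (rb_11 hy) 0 rfl) h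
theorem dp_ti_6_s (hy : Hy g H)
    (j u : ℕ) (hu : u < M) (h : dp_ti_6 j u = true) : Gd g H Lt.ti u := by
  unfold dp_ti_6 at h
  rcases brec_true h with h | h
  · exact lF_good (T := T) (x := Lt.ti) hM0 [Lt.b, Lt.ti, Lt.bi, Lt.t, Lt.d] (hat (rb_15 hy) 5 rfl) h
  · exact lS_good (T := T) (x := Lt.ti) hM0 hu [Lt.t] (hat (rf_29 hy) 0 rfl) h
theorem dp_ti_7_s (hy : Hy g H)
    (j u : ℕ) (hu : u < M) (h : dp_ti_7 j u = true) : Gd g H Lt.ti u := by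
  unfold dp_ti_7 at h
  rcases brec_true h with h | h
  · exact dp_ti_5_s hy j u hu h
  · exact dp_ti_6_s hy j u hu h
theorem dp_ti_8_s (hy : Hy g H)
    (j u : ℕ) (hu : u < M) (h : dp_ti_8 j u = true) : Gd g H Lt.ti u := by
  unfold dp_ti_8 at h
  rcases brec_true h with h | h
  · exact lF_good (T := T) (x := Lt.ti) hM0 [Lt.b, Lt.ci, Lt.t, Lt.c, Lt.bi] (hat (rf_17 hy) 0 rfl) h
  · exact lF_good (T := T) (x := Lt.ti) hM0 [Lt.b, Lt.t, Lt.bi, Lt.t, Lt.di] (hat (rf_15 hy) 4 rfl) h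
theorem dp_ti_9_s (hy : Hy g H)
    (j u : ℕ) (hu : u < M) (h : dp_ti_9 j u = true) : Gd g H Lt.ti u := by
  unfold dp_ti_9 at h
  rcases brec_true h with h | h
  · exact lF_good (T := T) (x := Lt.ti) hM0 [Lt.b, Lt.d, Lt.bi, Lt.t, Lt.b] (hat (rf_16 hy) 4 rfl) h
  · exact dp_ti_8_s hy j u hu h
theorem dp_ti_10_s (hy : Hy g H)
    (j u : ℕ) (hu : u < M) (h : dp_ti_10 j u = true) : Gd g H Lt.ti u := by
  unfold dp_ti_10 at h
  rcases brec_true h with h | h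
  · exact lS_good (T := T) (x := Lt.ti) hM0 hu [Lt.c, Lt.bi, Lt.t, Lt.b, Lt.ci] (hat (rb_17 hy) 4 rfl) h
  · exact lS_good (T := T) (x := Lt.ti) hM0 hu [Lt.bi, Lt.t, Lt.d, Lt.ti, Lt.b] (hat (rb_15 hy) 1 rfl) h
theorem dp_ti_11_s (hy : Hy g H)
    (j u : ℕ) (hu : u < M) (h : dp_ti_11 j u = true) : Gd g H Lt.ti u := by
  unfold dp_ti_11 at h
  rcases brec_true h with h | h
  · exact lF_good (T := T) (x := Lt.ti) hM0 [Lt.b, Lt.di, Lt.bi, Lt.t, Lt.bi] (hat (rb_16 hy) 5 rfl) h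
  · exact dp_ti_10_s hy j u hu h
theorem dp_ti_12_s (hy : Hy g H)
    (j u : ℕ) (hu : u < M) (h : dp_ti_12 j u = true) : Gd g H Lt.ti u := by
  unfold dp_ti_12 at h
  rcases brec_true h with h | h
  · exact lS_good (T := T) (x := Lt.ti) hM0 hu [Lt.di, Lt.a, Lt.d, Lt.t, Lt.a] (hat (rf_12 hy) 4 rfl) h
  · exact lS_good (T := T) (x := Lt.ti) hM0 hu [Lt.d, Lt.t, Lt.T, Lt.d, Lt.Ti] (hat (rf_11 hy) 5 rfl) h
theorem dp_ti_13_s (hy : Hy g H)
    (j u : ℕ) (hu : u < M) (h : dp_ti_13 j u = true) : Gd g H Lt.ti u := by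
  unfold dp_ti_13 at h
  rcases brec_true h with h | h
  · exact lS_good (T := T) (x := Lt.ti) hM0 hu [Lt.b, Lt.d, Lt.bi, Lt.t, Lt.b] (hat (rf_16 hy) 4 rfl) h
  · exact lS_good (T := T) (x := Lt.ti) hM0 hu [Lt.b, Lt.ci, Lt.t, Lt.c, Lt.bi] (hat (rf_17 hy) 0 rfl) h
theorem dp_ti_14_s (hy : Hy g H)
    (j u : ℕ) (hu : u < M) (h : dp_ti_14 j u = true) : Gd g H Lt.ti u := by
  unfold dp_ti_14 at h
  rcases brec_true h with h | h
  · exact dp_ti_12_s hy j u hu h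
  · exact dp_ti_13_s hy j u hu h
theorem dp_ti_15_s (hy : Hy g H)
    (j u : ℕ) (hu : u < M) (h : dp_ti_15 j u = true) : Gd g H Lt.ti u := by
  unfold dp_ti_15 at h
  rcases brec_true h with h | h
  · exact lS_good (T := T) (x := Lt.ti) hM0 hu [Lt.T, Lt.t, Lt.Ti, Lt.t, Lt.T] (hat (rf_7 hy) 2 rfl) h
  · exact lS_good (T := T) (x := Lt.ti) hM0 hu [Lt.b, Lt.di, Lt.bi, Lt.t, Lt.bi] (hat (rb_16 hy) 5 rfl) h
theorem dp_ti_16_s (hy : Hy g H)
    (j u : ℕ) (hu : u < M) (h : dp_ti_16 j u = true) : Gd g H Lt.ti u := by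
  unfold dp_ti_16 at h
  rcases brec_true h with h | h
  · exact lS_good (T := T) (x := Lt.ti) hM0 hu [Lt.di, Lt.ai, Lt.d, Lt.t, Lt.ai] (hat (rb_12 hy) 5 rfl) h
  · exact dp_ti_15_s hy j u hu h
theorem dp_ti_17_s (hy : Hy g H)
    (j u : ℕ) (hu : u < M) (h : dp_ti_17 j u = true) : Gd g H Lt.ti u := by
  unfold dp_ti_17 at h
  rcases brec_true h with h | h
  · exact lS_good (T := T) (x := Lt.ti) hM0 hu [Lt.z, Lt.t, Lt.zi] (hat (rf_1 hy) 0 rfl) h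
  · exact lS_good (T := T) (x := Lt.ti) hM0 hu [Lt.b, Lt.ti, Lt.bi, Lt.t, Lt.d] (hat (rb_15 hy) 5 rfl) h
theorem dp_ti_18_s (hy : Hy g H)
    (j u : ℕ) (hu : u < M) (h : dp_ti_18 j u = true) : Gd g H Lt.ti u := by
  unfold dp_ti_18 at h
  rcases brec_true h with h | h
  · exact lS_good (T := T) (x := Lt.ti) hM0 hu [Lt.di, Lt.t, Lt.T, Lt.di, Lt.Ti] (hat (rb_11 hy) 0 rfl) h
  · exact lS_good (T := T) (x := Lt.ti) hM0 hu [Lt.b, Lt.t, Lt.bi, Lt.t, Lt.di] (hat (rf_15 hy) 4 rfl) h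
theorem dp_ti_19_s (hy : Hy g H)
    (j u : ℕ) (hu : u < M) (h : dp_ti_19 j u = true) : Gd g H Lt.ti u := by
  unfold dp_ti_19 at h
  rcases brec_true h with h | h
  · exact lS_good (T := T) (x := Lt.ti) hM0 hu [Lt.T, Lt.ti, Lt.Ti, Lt.t, Lt.Ti] (hat (rb_7 hy) 1 rfl) h
  · exact lS_good (T := T) (x := Lt.ti) hM0 hu [Lt.ci, Lt.bi, Lt.ai, Lt.bi, Lt.t, Lt.Ti, Lt.bi, Lt.di, Lt.ci, Lt.a, Lt.ti, Lt.ci, Lt.bi, Lt.ai, Lt.bi, Lt.t, Lt.Ti, Lt.bi, Lt.di, Lt.ci, Lt.a, Lt.ti, Lt.ci, Lt.bi, Lt.ai, Lt.bi, Lt.t, Lt.Ti, Lt.bi, Lt.di, Lt.ci, Lt.a, Lt.ti, Lt.ci, Lt.bi, Lt.ai, Lt.bi, Lt.t, Lt.Ti, Lt.z, Lt.bi, Lt.di, Lt.ci, Lt.a] (hat (rb_20 hy) 6 rfl) h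
theorem dp_ti_20_s (hy : Hy g H)
    (j u : ℕ) (hu : u < M) (h : dp_ti_20 j u = true) : Gd g H Lt.ti u := by
  unfold dp_ti_20 at h
  rcases brec_true h with h | h
  · exact dp_ti_18_s hy j u hu h
  · exact dp_ti_19_s hy j u hu h
theorem dp_ti_21_s (hy : Hy g H)
    (j u : ℕ) (hu : u < M) (h : dp_ti_21 j u = true) : Gd g H Lt.ti u := by
  unfold dp_ti_21 at h
  rcases brec_true h with h | h
  · exact dp_ti_17_s hy j u hu h
  · exact dp_ti_20_s hy j u hu h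
theorem dp_ti_22_s (hy : Hy g H)
    (j u : ℕ) (hu : u < M) (h : dp_ti_22 j u = true) : Gd g H Lt.ti u := by
  unfold dp_ti_22 at h
  rcases brec_true h with h | h
  · exact dp_ti_16_s hy j u hu h
  · exact dp_ti_21_s hy j u hu h
theorem dp_ti_23_s (hy : Hy g H)
    (j u : ℕ) (hu : u < M) (h : dp_ti_23 j u = true) : Gd g H Lt.ti u := by
  unfold dp_ti_23 at h
  rcases brec_true h with h | h
  · exact dp_ti_14_s hy j u hu h
  · exact dp_ti_22_s hy j u hu h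
theorem dp_ti_24_s (hy : Hy g H)
    (j u : ℕ) (hu : u < M) (h : dp_ti_24 j u = true) : Gd g H Lt.ti u := by
  unfold dp_ti_24 at h
  rcases brec_true h with h | h
  · exact dp_ti_11_s hy j u hu h
  · exact dp_ti_23_s hy j u hu h
theorem dp_ti_25_s (hy : Hy g H)
    (j u : ℕ) (hu : u < M) (h : dp_ti_25 j u = true) : Gd g H Lt.ti u := by
  unfold dp_ti_25 at h
  rcases brec_true h with h | h
  · exact dp_ti_9_s hy j u hu h
  · exact dp_ti_24_s hy j u hu h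
theorem dp_ti_26_s (hy : Hy g H)
    (j u : ℕ) (hu : u < M) (h : dp_ti_26 j u = true) : Gd g H Lt.ti u := by
  unfold dp_ti_26 at h
  rcases brec_true h with h | h
  · exact dp_ti_7_s hy j u hu h
  · exact dp_ti_25_s hy j u hu h
theorem dp_ti_27_s (hy : Hy g H)
    (j u : ℕ) (hu : u < M) (h : dp_ti_27 j u = true) : Gd g H Lt.ti u := by
  unfold dp_ti_27 at h
  rcases brec_true h with h | h
  · exact dp_ti_4_s hy j u hu h
  · exact dp_ti_26_s hy j u hu h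
theorem dp_ti_28_s (hy : Hy g H)
    (j u : ℕ) (hu : u < M) (h : dp_ti_28 j u = true) : Gd g H Lt.ti u := by
  unfold dp_ti_28 at h
  rcases brec_true h with h | h
  · rcases brec_true h with h | h
    · rcases brec_true h with h | h
      · exact lF3_good (T := T) (x := Lt.ti) hM0 .z .t .zi (hat (rf_1 hy) 0 rfl) h
      · exact lDef_good (T := T) (x := Lt.ti) (by decide) rfl h
    · rcases brec_true h with h | h
      · exact lF_good (T := T) (x := Lt.ti) hM0 [Lt.c, Lt.bi, Lt.t, Lt.b, Lt.ci] (hat (rb_17 hy) 4 rfl) h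
      · exact dp_ti_0_s hy j u hu h
  · exact dp_ti_27_s hy j u hu h
theorem snd_ti (hy : Hy g H)
    (j u : ℕ) (hu : u < M) (h : disp_ti j u = true) : Gd g H Lt.ti u := by
  unfold disp_ti at h
  rcases brec_true h with h | h
  · rcases brec_true h with h | h
    · exact lF1_good (T := T) (x := Lt.ti) hM0 .t (hat (rf_29 hy) 0 rfl) h
    · exact lF3_good (T := T) (x := Lt.ti) hM0 .zi .t .z (hat (rb_1 hy) 3 rfl) h
  · exact dp_ti_28_s hy j u hu h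
theorem snc_ti (hy : Hy g H)
    (j u : ℕ) (hu : u < M) (h : chk_ti j u = true) : (T Lt.ti u < A ∧ Gd g H Lt.ti u) ∨ (A ≤ T Lt.ti u ∧ MG u < A) := by
  unfold chk_ti at h
  cases hb : Nat.ble A (T_ti u) with
  | true => rw [hb] at h; exact Or.inr ⟨le_of_ble hb, le_of_ble h⟩
  | false => rw [hb] at h; exact Or.inl ⟨lt_of_ble_false hb, snd_ti hy j u hu h⟩
theorem dp_T_0_s (hy : Hy g H)
    (j u : ℕ) (hu : u < M) (h : dp_T_0 j u = true) : Gd g H Lt.T u := by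
  unfold dp_T_0 at h
  rcases brec_true h with h | h
  · exact lF_good (T := T) (x := Lt.T) hM0 [Lt.ci, Lt.a, Lt.Ti, Lt.ai, Lt.c] (hat (rb_10 hy) 4 rfl) h
  · exact lF_good (T := T) (x := Lt.T) hM0 [Lt.t, Lt.Ti, Lt.t, Lt.T, Lt.ti] (hat (rf_7 hy) 3 rfl) h
theorem dp_T_1_s (hy : Hy g H)
    (j u : ℕ) (hu : u < M) (h : dp_T_1 j u = true) : Gd g H Lt.T u := by
  unfold dp_T_1 at h
  rcases brec_true h with h | h
  · exact lF_good (T := T) (x := Lt.T) hM0 [Lt.di, Lt.Ti, Lt.ti, Lt.di, Lt.t] (hat (rb_11 hy) 3 rfl) h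
  · exact lF_good (T := T) (x := Lt.T) hM0 [Lt.ai, Lt.c, Lt.Ti, Lt.ci, Lt.a] (hat (rf_10 hy) 0 rfl) h
theorem dp_T_2_s (hy : Hy g H)
    (j u : ℕ) (hu : u < M) (h : dp_T_2 j u = true) : Gd g H Lt.T u := by
  unfold dp_T_2 at h
  rcases brec_true h with h | h
  · exact lF_good (T := T) (x := Lt.T) hM0 [Lt.c, Lt.a, Lt.Ti, Lt.ai, Lt.ci] (hat (rb_19 hy) 4 rfl) h
  · exact dp_T_1_s hy j u hu h
theorem dp_T_3_s (hy : Hy g H)
    (j u : ℕ) (hu : u < M) (h : dp_T_3 j u = true) : Gd g H Lt.T u := by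
  unfold dp_T_3 at h
  rcases brec_true h with h | h
  · exact lF_good (T := T) (x := Lt.T) hM0 [Lt.d, Lt.Ti, Lt.ti, Lt.d, Lt.t] (hat (rf_11 hy) 2 rfl) h
  · exact lF_good (T := T) (x := Lt.T) hM0 [Lt.b, Lt.c, Lt.Ti, Lt.ci, Lt.bi] (hat (rb_18 hy) 1 rfl) h
theorem dp_T_4_s (hy : Hy g H)
    (j u : ℕ) (hu : u < M) (h : dp_T_4 j u = true) : Gd g H Lt.T u := by
  unfold dp_T_4 at h
  rcases brec_true h with h | h
  · exact lF_good (T := T) (x := Lt.T) hM0 [Lt.ai, Lt.ci, Lt.Ti, Lt.c, Lt.a] (hat (rf_19 hy) 0 rfl) h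
  · exact dp_T_3_s hy j u hu h
theorem dp_T_5_s (hy : Hy g H)
    (j u : ℕ) (hu : u < M) (h : dp_T_5 j u = true) : Gd g H Lt.T u := by
  unfold dp_T_5 at h
  rcases brec_true h with h | h
  · exact lF_good (T := T) (x := Lt.T) hM0 [Lt.ci, Lt.bi, Lt.Ti, Lt.b, Lt.c] (hat (rf_18 hy) 3 rfl) h
  · exact lF_good (T := T) (x := Lt.T) hM0 [Lt.ti, Lt.T, Lt.t, Lt.Ti, Lt.t] (hat (rf_7 hy) 1 rfl) h
theorem dp_T_6_s (hy : Hy g H)
    (j u : ℕ) (hu : u < M) (h : dp_T_6 j u = true) : Gd g H Lt.T u := by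
  unfold dp_T_6 at h
  rcases brec_true h with h | h
  · exact lS_good (T := T) (x := Lt.T) hM0 hu [Lt.di, Lt.Ti, Lt.ti, Lt.di, Lt.t] (hat (rb_11 hy) 3 rfl) h
  · exact lS_good (T := T) (x := Lt.T) hM0 hu [Lt.t, Lt.Ti, Lt.t, Lt.T, Lt.ti] (hat (rf_7 hy) 3 rfl) h
theorem dp_T_7_s (hy : Hy g H)
    (j u : ℕ) (hu : u < M) (h : dp_T_7 j u = true) : Gd g H Lt.T u := by
  unfold dp_T_7 at h
  rcases brec_true h with h | h
  · exact lS_good (T := T) (x := Lt.T) hM0 hu [Lt.ai, Lt.c, Lt.Ti, Lt.ci, Lt.a] (hat (rf_10 hy) 0 rfl) h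
  · exact dp_T_6_s hy j u hu h
theorem dp_T_8_s (hy : Hy g H)
    (j u : ℕ) (hu : u < M) (h : dp_T_8 j u = true) : Gd g H Lt.T u := by
  unfold dp_T_8 at h
  rcases brec_true h with h | h
  · exact lS_good (T := T) (x := Lt.T) hM0 hu [Lt.d, Lt.Ti, Lt.ti, Lt.d, Lt.t] (hat (rf_11 hy) 2 rfl) h
  · exact lS_good (T := T) (x := Lt.T) hM0 hu [Lt.b, Lt.c, Lt.Ti, Lt.ci, Lt.bi] (hat (rb_18 hy) 1 rfl) h
theorem dp_T_9_s (hy : Hy g H)
    (j u : ℕ) (hu : u < M) (h : dp_T_9 j u = true) : Gd g H Lt.T u := by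
  unfold dp_T_9 at h
  rcases brec_true h with h | h
  · exact lS_good (T := T) (x := Lt.T) hM0 hu [Lt.c, Lt.a, Lt.Ti, Lt.ai, Lt.ci] (hat (rb_19 hy) 4 rfl) h
  · exact lS_good (T := T) (x := Lt.T) hM0 hu [Lt.ai, Lt.ci, Lt.Ti, Lt.c, Lt.a] (hat (rf_19 hy) 0 rfl) h
theorem dp_T_10_s (hy : Hy g H)
    (j u : ℕ) (hu : u < M) (h : dp_T_10 j u = true) : Gd g H Lt.T u := by
  unfold dp_T_10 at h
  rcases brec_true h with h | h
  · exact lS_good (T := T) (x := Lt.T) hM0 hu [Lt.zi, Lt.Ti, Lt.z] (hat (rf_0 hy) 2 rfl) h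
  · exact lS_good (T := T) (x := Lt.T) hM0 hu [Lt.ci, Lt.a, Lt.Ti, Lt.ai, Lt.c] (hat (rb_10 hy) 4 rfl) h
theorem dp_T_11_s (hy : Hy g H)
    (j u : ℕ) (hu : u < M) (h : dp_T_11 j u = true) : Gd g H Lt.T u := by
  unfold dp_T_11 at h
  rcases brec_true h with h | h
  · exact lS_good (T := T) (x := Lt.T) hM0 hu [Lt.ci, Lt.bi, Lt.Ti, Lt.b, Lt.c] (hat (rf_18 hy) 3 rfl) h
  · exact dp_T_10_s hy j u hu h
theorem dp_T_12_s (hy : Hy g H)
    (j u : ℕ) (hu : u < M) (h : dp_T_12 j u = true) : Gd g H Lt.T u := by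
  unfold dp_T_12 at h
  rcases brec_true h with h | h
  · exact lS_good (T := T) (x := Lt.T) hM0 hu [Lt.ti, Lt.Ti, Lt.t, Lt.Ti, Lt.ti] (hat (rb_7 hy) 2 rfl) h
  · exact dp_T_11_s hy j u hu h
theorem dp_T_13_s (hy : Hy g H)
    (j u : ℕ) (hu : u < M) (h : dp_T_13 j u = true) : Gd g H Lt.T u := by
  unfold dp_T_13 at h
  rcases brec_true h with h | h
  · exact dp_T_9_s hy j u hu h
  · exact dp_T_12_s hy j u hu h
theorem dp_T_14_s (hy : Hy g H)
    (j u : ℕ) (hu : u < M) (h : dp_T_14 j u = true) : Gd g H Lt.T u := by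
  unfold dp_T_14 at h
  rcases brec_true h with h | h
  · exact dp_T_8_s hy j u hu h
  · exact dp_T_13_s hy j u hu h
theorem dp_T_15_s (hy : Hy g H)
    (j u : ℕ) (hu : u < M) (h : dp_T_15 j u = true) : Gd g H Lt.T u := by
  unfold dp_T_15 at h
  rcases brec_true h with h | h
  · exact dp_T_7_s hy j u hu h
  · exact dp_T_14_s hy j u hu h
theorem dp_T_16_s (hy : Hy g H)
    (j u : ℕ) (hu : u < M) (h : dp_T_16 j u = true) : Gd g H Lt.T u := by
  unfold dp_T_16 at h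
  rcases brec_true h with h | h
  · exact lS_good (T := T) (x := Lt.T) hM0 hu [Lt.Ti] (hat (rf_31 hy) 1 rfl) h
  · exact dp_T_15_s hy j u hu h
theorem dp_T_17_s (hy : Hy g H)
    (j u : ℕ) (hu : u < M) (h : dp_T_17 j u = true) : Gd g H Lt.T u := by
  unfold dp_T_17 at h
  rcases brec_true h with h | h
  · exact lF_good (T := T) (x := Lt.T) hM0 [Lt.ti, Lt.Ti, Lt.t, Lt.Ti, Lt.ti] (hat (rb_7 hy) 2 rfl) h
  · exact dp_T_16_s hy j u hu h
theorem dp_T_18_s (hy : Hy g H)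
    (j u : ℕ) (hu : u < M) (h : dp_T_18 j u = true) : Gd g H Lt.T u := by
  unfold dp_T_18 at h
  rcases brec_true h with h | h
  · exact dp_T_5_s hy j u hu h
  · exact dp_T_17_s hy j u hu h
theorem dp_T_19_s (hy : Hy g H)
    (j u : ℕ) (hu : u < M) (h : dp_T_19 j u = true) : Gd g H Lt.T u := by
  unfold dp_T_19 at h
  rcases brec_true h with h | h
  · exact dp_T_4_s hy j u hu h
  · exact dp_T_18_s hy j u hu h
theorem dp_T_20_s (hy : Hy g H)
    (j u : ℕ) (hu : u < M) (h : dp_T_20 j u = true) : Gd g H Lt.T u := by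
  unfold dp_T_20 at h
  rcases brec_true h with h | h
  · rcases brec_true h with h | h
    · exact dp_T_0_s hy j u hu h
    · exact dp_T_2_s hy j u hu h
  · exact dp_T_19_s hy j u hu h
theorem snd_T (hy : Hy g H)
    (j u : ℕ) (hu : u < M) (h : disp_T j u = true) : Gd g H Lt.T u := by
  unfold disp_T at h
  rcases brec_true h with h | h
  · rcases brec_true h with h | h
    · exact lF1_good (T := T) (x := Lt.T) hM0 .Ti (hat (rf_31 hy) 1 rfl) h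
    · exact lF3_good (T := T) (x := Lt.T) hM0 .zi .Ti .z (hat (rf_0 hy) 2 rfl) h
  · rcases brec_true h with h | h
    · rcases brec_true h with h | h
      · exact lF3_good (T := T) (x := Lt.T) hM0 .z .Ti .zi (hat (rb_0 hy) 1 rfl) h
      · rcases brec_true h with h | h
        · exact lPar_good (T := T) (x := Lt.T) (x' := Lt.Ti) (by decide) rfl (ivt hy _ _ rfl) h
        · exact lDef_good (T := T) (x := Lt.T) (by decide) rfl h
    · exact dp_T_20_s hy j u hu h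
theorem snc_T (hy : Hy g H)
    (j u : ℕ) (hu : u < M) (h : chk_T j u = true) : (T Lt.T u < A ∧ Gd g H Lt.T u) ∨ (A ≤ T Lt.T u ∧ MG u < A) := by
  unfold chk_T at h
  cases hb : Nat.ble A (T_T u) with
  | true => rw [hb] at h; exact Or.inr ⟨le_of_ble hb, le_of_ble h⟩
  | false => rw [hb] at h; exact Or.inl ⟨lt_of_ble_false hb, snd_T hy j u hu h⟩
theorem dp_Ti_0_s (hy : Hy g H)
    (j u : ℕ) (hu : u < M) (h : dp_Ti_0 j u = true) : Gd g H Lt.Ti u := by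
  unfold dp_Ti_0 at h
  rcases brec_true h with h | h
  · exact lPar_good (T := T) (x := Lt.Ti) (x' := Lt.T) (by decide) rfl (ivt hy _ _ rfl) h
  · exact lF_good (T := T) (x := Lt.Ti) hM0 [Lt.c, Lt.a, Lt.T, Lt.ai, Lt.ci] (hat (rf_19 hy) 3 rfl) h
theorem dp_Ti_1_s (hy : Hy g H)
    (j u : ℕ) (hu : u < M) (h : dp_Ti_1 j u = true) : Gd g H Lt.Ti u := by
  unfold dp_Ti_1 at h
  rcases brec_true h with h | h
  · exact lF_good (T := T) (x := Lt.Ti) hM0 [Lt.ci, Lt.a, Lt.T, Lt.ai, Lt.c] (hat (rf_10 hy) 3 rfl) h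
  · exact lF_good (T := T) (x := Lt.Ti) hM0 [Lt.t, Lt.Ti, Lt.ti, Lt.T, Lt.ti] (hat (rb_7 hy) 4 rfl) h
theorem dp_Ti_2_s (hy : Hy g H)
    (j u : ℕ) (hu : u < M) (h : dp_Ti_2 j u = true) : Gd g H Lt.Ti u := by
  unfold dp_Ti_2 at h
  rcases brec_true h with h | h
  · exact lF_good (T := T) (x := Lt.Ti) hM0 [Lt.ai, Lt.c, Lt.T, Lt.ci, Lt.a] (hat (rb_10 hy) 1 rfl) h
  · exact lF_good (T := T) (x := Lt.Ti) hM0 [Lt.b, Lt.c, Lt.T, Lt.ci, Lt.bi] (hat (rf_18 hy) 0 rfl) h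
theorem dp_Ti_3_s (hy : Hy g H)
    (j u : ℕ) (hu : u < M) (h : dp_Ti_3 j u = true) : Gd g H Lt.Ti u := by
  unfold dp_Ti_3 at h
  rcases brec_true h with h | h
  · exact lF_good (T := T) (x := Lt.Ti) hM0 [Lt.t, Lt.T, Lt.ti, Lt.T, Lt.t] (hat (rf_7 hy) 5 rfl) h
  · exact dp_Ti_2_s hy j u hu h
theorem dp_Ti_4_s (hy : Hy g H)
    (j u : ℕ) (hu : u < M) (h : dp_Ti_4 j u = true) : Gd g H Lt.Ti u := by
  unfold dp_Ti_4 at h
  rcases brec_true h with h | h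
  · exact lF_good (T := T) (x := Lt.Ti) hM0 [Lt.ai, Lt.ci, Lt.T, Lt.c, Lt.a] (hat (rb_19 hy) 1 rfl) h
  · exact lF_good (T := T) (x := Lt.Ti) hM0 [Lt.ti, Lt.di, Lt.t, Lt.T, Lt.di] (hat (rb_11 hy) 5 rfl) h
theorem dp_Ti_5_s (hy : Hy g H)
    (j u : ℕ) (hu : u < M) (h : dp_Ti_5 j u = true) : Gd g H Lt.Ti u := by
  unfold dp_Ti_5 at h
  rcases brec_true h with h | h
  · exact lF_good (T := T) (x := Lt.Ti) hM0 [Lt.ti, Lt.d, Lt.t, Lt.T, Lt.d] (hat (rf_11 hy) 4 rfl) h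
  · exact dp_Ti_4_s hy j u hu h
theorem dp_Ti_6_s (hy : Hy g H)
    (j u : ℕ) (hu : u < M) (h : dp_Ti_6 j u = true) : Gd g H Lt.Ti u := by
  unfold dp_Ti_6 at h
  rcases brec_true h with h | h
  · exact lF_good (T := T) (x := Lt.Ti) hM0 [Lt.ci, Lt.bi, Lt.T, Lt.b, Lt.c] (hat (rb_18 hy) 4 rfl) h
  · exact lS_good (T := T) (x := Lt.Ti) hM0 hu [Lt.T] (hat (rf_31 hy) 0 rfl) h
theorem dp_Ti_7_s (hy : Hy g H)
    (j u : ℕ) (hu : u < M) (h : dp_Ti_7 j u = true) : Gd g H Lt.Ti u := by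
  unfold dp_Ti_7 at h
  rcases brec_true h with h | h
  · exact lS_good (T := T) (x := Lt.Ti) hM0 hu [Lt.c, Lt.a, Lt.T, Lt.ai, Lt.ci] (hat (rf_19 hy) 3 rfl) h
  · exact lS_good (T := T) (x := Lt.Ti) hM0 hu [Lt.ai, Lt.ci, Lt.T, Lt.c, Lt.a] (hat (rb_19 hy) 1 rfl) h
theorem dp_Ti_8_s (hy : Hy g H)
    (j u : ℕ) (hu : u < M) (h : dp_Ti_8 j u = true) : Gd g H Lt.Ti u := by
  unfold dp_Ti_8 at h
  rcases brec_true h with h | h
  · exact lS_good (T := T) (x := Lt.Ti) hM0 hu [Lt.ai, Lt.c, Lt.T, Lt.ci, Lt.a] (hat (rb_10 hy) 1 rfl) h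
  · exact lS_good (T := T) (x := Lt.Ti) hM0 hu [Lt.b, Lt.c, Lt.T, Lt.ci, Lt.bi] (hat (rf_18 hy) 0 rfl) h
theorem dp_Ti_9_s (hy : Hy g H)
    (j u : ℕ) (hu : u < M) (h : dp_Ti_9 j u = true) : Gd g H Lt.Ti u := by
  unfold dp_Ti_9 at h
  rcases brec_true h with h | h
  · exact dp_Ti_7_s hy j u hu h
  · exact dp_Ti_8_s hy j u hu h
theorem dp_Ti_10_s (hy : Hy g H)
    (j u : ℕ) (hu : u < M) (h : dp_Ti_10 j u = true) : Gd g H Lt.Ti u := by
  unfold dp_Ti_10 at h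
  rcases brec_true h with h | h
  · exact lS_good (T := T) (x := Lt.Ti) hM0 hu [Lt.ti, Lt.d, Lt.t, Lt.T, Lt.d] (hat (rf_11 hy) 4 rfl) h
  · exact lS_good (T := T) (x := Lt.Ti) hM0 hu [Lt.ti, Lt.di, Lt.t, Lt.T, Lt.di] (hat (rb_11 hy) 5 rfl) h
theorem dp_Ti_11_s (hy : Hy g H)
    (j u : ℕ) (hu : u < M) (h : dp_Ti_11 j u = true) : Gd g H Lt.Ti u := by
  unfold dp_Ti_11 at h
  rcases brec_true h with h | h
  · exact lS_good (T := T) (x := Lt.Ti) hM0 hu [Lt.ci, Lt.a, Lt.T, Lt.ai, Lt.c] (hat (rf_10 hy) 3 rfl) h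
  · exact dp_Ti_10_s hy j u hu h
theorem dp_Ti_12_s (hy : Hy g H)
    (j u : ℕ) (hu : u < M) (h : dp_Ti_12 j u = true) : Gd g H Lt.Ti u := by
  unfold dp_Ti_12 at h
  rcases brec_true h with h | h
  · exact lS_good (T := T) (x := Lt.Ti) hM0 hu [Lt.t, Lt.T, Lt.ti, Lt.T, Lt.t] (hat (rf_7 hy) 5 rfl) h
  · exact lS_good (T := T) (x := Lt.Ti) hM0 hu [Lt.ci, Lt.bi, Lt.T, Lt.b, Lt.c] (hat (rb_18 hy) 4 rfl) h
theorem dp_Ti_13_s (hy : Hy g H)
    (j u : ℕ) (hu : u < M) (h : dp_Ti_13 j u = true) : Gd g H Lt.Ti u := by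
  unfold dp_Ti_13 at h
  rcases brec_true h with h | h
  · exact lS_good (T := T) (x := Lt.Ti) hM0 hu [Lt.t, Lt.Ti, Lt.ti, Lt.T, Lt.ti] (hat (rb_7 hy) 4 rfl) h
  · exact lS_good (T := T) (x := Lt.Ti) hM0 hu [Lt.zi, Lt.T, Lt.z] (hat (rb_0 hy) 3 rfl) h
theorem dp_Ti_14_s (hy : Hy g H)
    (j u : ℕ) (hu : u < M) (h : dp_Ti_14 j u = true) : Gd g H Lt.Ti u := by
  unfold dp_Ti_14 at h
  rcases brec_true h with h | h
  · exact lS_good (T := T) (x := Lt.Ti) hM0 hu [Lt.ti, Lt.T, Lt.ti, Lt.Ti, Lt.t] (hat (rb_7 hy) 0 rfl) h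
  · exact dp_Ti_13_s hy j u hu h
theorem dp_Ti_15_s (hy : Hy g H)
    (j u : ℕ) (hu : u < M) (h : dp_Ti_15 j u = true) : Gd g H Lt.Ti u := by
  unfold dp_Ti_15 at h
  rcases brec_true h with h | h
  · exact dp_Ti_12_s hy j u hu h
  · exact dp_Ti_14_s hy j u hu h
theorem dp_Ti_16_s (hy : Hy g H)
    (j u : ℕ) (hu : u < M) (h : dp_Ti_16 j u = true) : Gd g H Lt.Ti u := by
  unfold dp_Ti_16 at h
  rcases brec_true h with h | h
  · exact dp_Ti_11_s hy j u hu h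
  · exact dp_Ti_15_s hy j u hu h
theorem dp_Ti_17_s (hy : Hy g H)
    (j u : ℕ) (hu : u < M) (h : dp_Ti_17 j u = true) : Gd g H Lt.Ti u := by
  unfold dp_Ti_17 at h
  rcases brec_true h with h | h
  · exact dp_Ti_9_s hy j u hu h
  · exact dp_Ti_16_s hy j u hu h
theorem dp_Ti_18_s (hy : Hy g H)
    (j u : ℕ) (hu : u < M) (h : dp_Ti_18 j u = true) : Gd g H Lt.Ti u := by
  unfold dp_Ti_18 at h
  rcases brec_true h with h | h
  · exact lF_good (T := T) (x := Lt.Ti) hM0 [Lt.ti, Lt.T, Lt.ti, Lt.Ti, Lt.t] (hat (rb_7 hy) 0 rfl) h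
  · exact dp_Ti_17_s hy j u hu h
theorem dp_Ti_19_s (hy : Hy g H)
    (j u : ℕ) (hu : u < M) (h : dp_Ti_19 j u = true) : Gd g H Lt.Ti u := by
  unfold dp_Ti_19 at h
  rcases brec_true h with h | h
  · exact dp_Ti_6_s hy j u hu h
  · exact dp_Ti_18_s hy j u hu h
theorem dp_Ti_20_s (hy : Hy g H)
    (j u : ℕ) (hu : u < M) (h : dp_Ti_20 j u = true) : Gd g H Lt.Ti u := by
  unfold dp_Ti_20 at h
  rcases brec_true h with h | h
  · exact dp_Ti_5_s hy j u hu h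
  · exact dp_Ti_19_s hy j u hu h
theorem dp_Ti_21_s (hy : Hy g H)
    (j u : ℕ) (hu : u < M) (h : dp_Ti_21 j u = true) : Gd g H Lt.Ti u := by
  unfold dp_Ti_21 at h
  rcases brec_true h with h | h
  · rcases brec_true h with h | h
    · exact dp_Ti_1_s hy j u hu h
    · exact dp_Ti_3_s hy j u hu h
  · exact dp_Ti_20_s hy j u hu h
theorem dp_Ti_22_s (hy : Hy g H)
    (j u : ℕ) (hu : u < M) (h : dp_Ti_22 j u = true) : Gd g H Lt.Ti u := by
  unfold dp_Ti_22 at h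
  rcases brec_true h with h | h
  · rcases brec_true h with h | h
    · exact lDef_good (T := T) (x := Lt.Ti) (by decide) rfl h
    · rcases brec_true h with h | h
      · exact lF3_good (T := T) (x := Lt.Ti) hM0 .z .T .zi (hat (rf_0 hy) 0 rfl) h
      · exact dp_Ti_0_s hy j u hu h
  · exact dp_Ti_21_s hy j u hu h
theorem snd_Ti (hy : Hy g H)
    (j u : ℕ) (hu : u < M) (h : disp_Ti j u = true) : Gd g H Lt.Ti u := by
  unfold disp_Ti at h
  rcases brec_true h with h | h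
  · rcases brec_true h with h | h
    · exact lF1_good (T := T) (x := Lt.Ti) hM0 .T (hat (rf_31 hy) 0 rfl) h
    · exact lF3_good (T := T) (x := Lt.Ti) hM0 .zi .T .z (hat (rb_0 hy) 3 rfl) h
  · exact dp_Ti_22_s hy j u hu h
theorem snc_Ti (hy : Hy g H)
    (j u : ℕ) (hu : u < M) (h : chk_Ti j u = true) : (T Lt.Ti u < A ∧ Gd g H Lt.Ti u) ∨ (A ≤ T Lt.Ti u ∧ MG u < A) := by
  unfold chk_Ti at h
  cases hb : Nat.ble A (T_Ti u) with
  | true => rw [hb] at h; exact Or.inr ⟨le_of_ble hb, le_of_ble h⟩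
  | false => rw [hb] at h; exact Or.inl ⟨lt_of_ble_false hb, snd_Ti hy j u hu h⟩
theorem dp_z_0_s (hy : Hy g H)
    (j u : ℕ) (hu : u < M) (h : dp_z_0 j u = true) : Gd g H Lt.z u := by
  unfold dp_z_0 at h
  rcases brec_true h with h | h
  · exact lF3_good (T := T) (x := Lt.z) hM0 .c .zi .ci (hat (rf_3 hy) 1 rfl) h
  · exact lS_good (T := T) (x := Lt.z) hM0 hu [Lt.t, Lt.zi, Lt.ti] (hat (rf_1 hy) 1 rfl) h
theorem dp_z_1_s (hy : Hy g H)
    (j u : ℕ) (hu : u < M) (h : dp_z_1 j u = true) : Gd g H Lt.z u := by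
  unfold dp_z_1 at h
  rcases brec_true h with h | h
  · exact lS_good (T := T) (x := Lt.z) hM0 hu [Lt.d, Lt.zi, Lt.di] (hat (rf_2 hy) 1 rfl) h
  · exact lF3_good (T := T) (x := Lt.z) hM0 .ci .zi .c (hat (rb_3 hy) 2 rfl) h
theorem dp_z_2_s (hy : Hy g H)
    (j u : ℕ) (hu : u < M) (h : dp_z_2 j u = true) : Gd g H Lt.z u := by
  unfold dp_z_2 at h
  rcases brec_true h with h | h
  · exact dp_z_0_s hy j u hu h
  · exact dp_z_1_s hy j u hu h
theorem dp_z_3_s (hy : Hy g H)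
    (j u : ℕ) (hu : u < M) (h : dp_z_3 j u = true) : Gd g H Lt.z u := by
  unfold dp_z_3 at h
  rcases brec_true h with h | h
  · exact lS_good (T := T) (x := Lt.z) hM0 hu [Lt.c, Lt.zi, Lt.ci] (hat (rf_3 hy) 1 rfl) h
  · exact lF3_good (T := T) (x := Lt.z) hM0 .ai .zi .a (hat (rb_5 hy) 2 rfl) h
theorem dp_z_4_s (hy : Hy g H)
    (j u : ℕ) (hu : u < M) (h : dp_z_4 j u = true) : Gd g H Lt.z u := by
  unfold dp_z_4 at h
  rcases brec_true h with h | h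
  · exact lS_good (T := T) (x := Lt.z) hM0 hu [Lt.zi] (hat (rf_33 hy) 1 rfl) h
  · exact lF3_good (T := T) (x := Lt.z) hM0 .bi .zi .b (hat (rb_4 hy) 2 rfl) h
theorem dp_z_5_s (hy : Hy g H)
    (j u : ℕ) (hu : u < M) (h : dp_z_5 j u = true) : Gd g H Lt.z u := by
  unfold dp_z_5 at h
  rcases brec_true h with h | h
  · exact dp_z_3_s hy j u hu h
  · exact dp_z_4_s hy j u hu h
theorem dp_z_6_s (hy : Hy g H)
    (j u : ℕ) (hu : u < M) (h : dp_z_6 j u = true) : Gd g H Lt.z u := by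
  unfold dp_z_6 at h
  rcases brec_true h with h | h
  · exact dp_z_2_s hy j u hu h
  · exact dp_z_5_s hy j u hu h
theorem dp_z_7_s (hy : Hy g H)
    (j u : ℕ) (hu : u < M) (h : dp_z_7 j u = true) : Gd g H Lt.z u := by
  unfold dp_z_7 at h
  rcases brec_true h with h | h
  · exact lF3_good (T := T) (x := Lt.z) hM0 .a .zi .ai (hat (rf_5 hy) 1 rfl) h
  · exact lF3_good (T := T) (x := Lt.z) hM0 .d .zi .di (hat (rf_2 hy) 1 rfl) h
theorem dp_z_8_s (hy : Hy g H)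
    (j u : ℕ) (hu : u < M) (h : dp_z_8 j u = true) : Gd g H Lt.z u := by
  unfold dp_z_8 at h
  rcases brec_true h with h | h
  · exact lS_good (T := T) (x := Lt.z) hM0 hu [Lt.ci, Lt.zi, Lt.c] (hat (rb_3 hy) 2 rfl) h
  · exact lS_good (T := T) (x := Lt.z) hM0 hu [Lt.b, Lt.zi, Lt.bi] (hat (rf_4 hy) 1 rfl) h
theorem dp_z_9_s (hy : Hy g H)
    (j u : ℕ) (hu : u < M) (h : dp_z_9 j u = true) : Gd g H Lt.z u := by
  unfold dp_z_9 at h
  rcases brec_true h with h | h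
  · exact lF3_good (T := T) (x := Lt.z) hM0 .b .zi .bi (hat (rf_4 hy) 1 rfl) h
  · exact dp_z_8_s hy j u hu h
theorem dp_z_10_s (hy : Hy g H)
    (j u : ℕ) (hu : u < M) (h : dp_z_10 j u = true) : Gd g H Lt.z u := by
  unfold dp_z_10 at h
  rcases brec_true h with h | h
  · exact dp_z_7_s hy j u hu h
  · exact dp_z_9_s hy j u hu h
theorem dp_z_11_s (hy : Hy g H)
    (j u : ℕ) (hu : u < M) (h : dp_z_11 j u = true) : Gd g H Lt.z u := by
  unfold dp_z_11 at h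
  rcases brec_true h with h | h
  · exact lS_good (T := T) (x := Lt.z) hM0 hu [Lt.bi, Lt.zi, Lt.b] (hat (rb_4 hy) 2 rfl) h
  · exact lS_good (T := T) (x := Lt.z) hM0 hu [Lt.di, Lt.zi, Lt.d] (hat (rb_2 hy) 2 rfl) h
theorem dp_z_12_s (hy : Hy g H)
    (j u : ℕ) (hu : u < M) (h : dp_z_12 j u = true) : Gd g H Lt.z u := by
  unfold dp_z_12 at h
  rcases brec_true h with h | h
  · exact lS_good (T := T) (x := Lt.z) hM0 hu [Lt.T, Lt.zi, Lt.Ti] (hat (rf_0 hy) 1 rfl) h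
  · exact lF3_good (T := T) (x := Lt.z) hM0 .di .zi .d (hat (rb_2 hy) 2 rfl) h
theorem dp_z_13_s (hy : Hy g H)
    (j u : ℕ) (hu : u < M) (h : dp_z_13 j u = true) : Gd g H Lt.z u := by
  unfold dp_z_13 at h
  rcases brec_true h with h | h
  · exact dp_z_11_s hy j u hu h
  · exact dp_z_12_s hy j u hu h
theorem dp_z_14_s (hy : Hy g H)
    (j u : ℕ) (hu : u < M) (h : dp_z_14 j u = true) : Gd g H Lt.z u := by
  unfold dp_z_14 at h
  rcases brec_true h with h | h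
  · exact lS_good (T := T) (x := Lt.z) hM0 hu [Lt.Ti, Lt.zi, Lt.T] (hat (rb_0 hy) 2 rfl) h
  · exact lS_good (T := T) (x := Lt.z) hM0 hu [Lt.ti, Lt.zi, Lt.t] (hat (rb_1 hy) 2 rfl) h
theorem dp_z_15_s (hy : Hy g H)
    (j u : ℕ) (hu : u < M) (h : dp_z_15 j u = true) : Gd g H Lt.z u := by
  unfold dp_z_15 at h
  rcases brec_true h with h | h
  · exact lF3_good (T := T) (x := Lt.z) hM0 .t .zi .ti (hat (rf_1 hy) 1 rfl) h
  · exact dp_z_14_s hy j u hu h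
theorem dp_z_16_s (hy : Hy g H)
    (j u : ℕ) (hu : u < M) (h : dp_z_16 j u = true) : Gd g H Lt.z u := by
  unfold dp_z_16 at h
  rcases brec_true h with h | h
  · exact lS_good (T := T) (x := Lt.z) hM0 hu [Lt.ai, Lt.zi, Lt.a] (hat (rb_5 hy) 2 rfl) h
  · exact lS_good (T := T) (x := Lt.z) hM0 hu [Lt.a, Lt.zi, Lt.ai] (hat (rf_5 hy) 1 rfl) h
theorem dp_z_17_s (hy : Hy g H)
    (j u : ℕ) (hu : u < M) (h : dp_z_17 j u = true) : Gd g H Lt.z u := by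
  unfold dp_z_17 at h
  rcases brec_true h with h | h
  · exact lF3_good (T := T) (x := Lt.z) hM0 .Ti .zi .T (hat (rb_0 hy) 2 rfl) h
  · exact lF3_good (T := T) (x := Lt.z) hM0 .T .zi .Ti (hat (rf_0 hy) 1 rfl) h
theorem dp_z_18_s (hy : Hy g H)
    (j u : ℕ) (hu : u < M) (h : dp_z_18 j u = true) : Gd g H Lt.z u := by
  unfold dp_z_18 at h
  rcases brec_true h with h | h
  · exact lF3_good (T := T) (x := Lt.z) hM0 .ti .zi .t (hat (rb_1 hy) 2 rfl) h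
  · exact dp_z_17_s hy j u hu h
theorem dp_z_19_s (hy : Hy g H)
    (j u : ℕ) (hu : u < M) (h : dp_z_19 j u = true) : Gd g H Lt.z u := by
  unfold dp_z_19 at h
  rcases brec_true h with h | h
  · exact dp_z_16_s hy j u hu h
  · exact dp_z_18_s hy j u hu h
theorem dp_z_20_s (hy : Hy g H)
    (j u : ℕ) (hu : u < M) (h : dp_z_20 j u = true) : Gd g H Lt.z u := by
  unfold dp_z_20 at h
  rcases brec_true h with h | h
  · exact dp_z_15_s hy j u hu h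
  · exact dp_z_19_s hy j u hu h
theorem dp_z_21_s (hy : Hy g H)
    (j u : ℕ) (hu : u < M) (h : dp_z_21 j u = true) : Gd g H Lt.z u := by
  unfold dp_z_21 at h
  rcases brec_true h with h | h
  · exact dp_z_13_s hy j u hu h
  · exact dp_z_20_s hy j u hu h
theorem dp_z_22_s (hy : Hy g H)
    (j u : ℕ) (hu : u < M) (h : dp_z_22 j u = true) : Gd g H Lt.z u := by
  unfold dp_z_22 at h
  rcases brec_true h with h | h
  · exact dp_z_10_s hy j u hu h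
  · exact dp_z_21_s hy j u hu h
theorem dp_z_23_s (hy : Hy g H)
    (j u : ℕ) (hu : u < M) (h : dp_z_23 j u = true) : Gd g H Lt.z u := by
  unfold dp_z_23 at h
  rcases brec_true h with h | h
  · exact dp_z_6_s hy j u hu h
  · exact dp_z_22_s hy j u hu h
theorem dp_z_24_s (hy : Hy g H)
    (j u : ℕ) (hu : u < M) (h : dp_z_24 j u = true) : Gd g H Lt.z u := by
  unfold dp_z_24 at h
  rcases brec_true h with h | h
  · rcases brec_true h with h | h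
    · exact lF3_good (T := T) (x := Lt.z) hM0 .z .z .z (hat (rf_6 hy) 0 rfl) h
    · exact lF1_good (T := T) (x := Lt.z) hM0 .zi (hat (rf_33 hy) 1 rfl) h
  · exact dp_z_23_s hy j u hu h
theorem snd_z (hy : Hy g H)
    (j u : ℕ) (hu : u < M) (h : disp_z j u = true) : Gd g H Lt.z u := by
  unfold disp_z at h
  rcases brec_true h with h | h
  · exact lDef_good (T := T) (x := Lt.z) (by decide) rfl h
  · rcases brec_true h with h | h
    · exact lPar_good (T := T) (x := Lt.z) (x' := Lt.zi) (by decide) rfl (ivt hy _ _ rfl) h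
    · exact dp_z_24_s hy j u hu h
theorem snc_z (hy : Hy g H)
    (j u : ℕ) (hu : u < M) (h : chk_z j u = true) : (T Lt.z u < A ∧ Gd g H Lt.z u) ∨ (A ≤ T Lt.z u ∧ MG u < A) := by
  unfold chk_z at h
  cases hb : Nat.ble A (T_z u) with
  | true => rw [hb] at h; exact Or.inr ⟨le_of_ble hb, le_of_ble h⟩
  | false => rw [hb] at h; exact Or.inl ⟨lt_of_ble_false hb, snd_z hy j u hu h⟩
theorem dp_zi_0_s (hy : Hy g H)
    (j u : ℕ) (hu : u < M) (h : dp_zi_0 j u = true) : Gd g H Lt.zi u := by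
  unfold dp_zi_0 at h
  rcases brec_true h with h | h
  · exact lS_good (T := T) (x := Lt.zi) hM0 hu [Lt.Ti, Lt.z, Lt.T] (hat (rf_0 hy) 3 rfl) h
  · exact lS_good (T := T) (x := Lt.zi) hM0 hu [Lt.z] (hat (rf_33 hy) 0 rfl) h
theorem dp_zi_1_s (hy : Hy g H)
    (j u : ℕ) (hu : u < M) (h : dp_zi_1 j u = true) : Gd g H Lt.zi u := by
  unfold dp_zi_1 at h
  rcases brec_true h with h | h
  · exact lS_good (T := T) (x := Lt.zi) hM0 hu [Lt.T, Lt.z, Lt.Ti] (hat (rb_0 hy) 0 rfl) h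
  · exact dp_zi_0_s hy j u hu h
theorem dp_zi_2_s (hy : Hy g H)
    (j u : ℕ) (hu : u < M) (h : dp_zi_2 j u = true) : Gd g H Lt.zi u := by
  unfold dp_zi_2 at h
  rcases brec_true h with h | h
  · exact lF3_good (T := T) (x := Lt.zi) hM0 .ci .z .c (hat (rf_3 hy) 3 rfl) h
  · exact lS_good (T := T) (x := Lt.zi) hM0 hu [Lt.ci, Lt.z, Lt.c] (hat (rf_3 hy) 3 rfl) h
theorem dp_zi_3_s (hy : Hy g H)
    (j u : ℕ) (hu : u < M) (h : dp_zi_3 j u = true) : Gd g H Lt.zi u := by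
  unfold dp_zi_3 at h
  rcases brec_true h with h | h
  · exact lS_good (T := T) (x := Lt.zi) hM0 hu [Lt.t, Lt.z, Lt.ti] (hat (rb_1 hy) 0 rfl) h
  · exact lF3_good (T := T) (x := Lt.zi) hM0 .c .z .ci (hat (rb_3 hy) 0 rfl) h
theorem dp_zi_4_s (hy : Hy g H)
    (j u : ℕ) (hu : u < M) (h : dp_zi_4 j u = true) : Gd g H Lt.zi u := by
  unfold dp_zi_4 at h
  rcases brec_true h with h | h
  · exact lF3_good (T := T) (x := Lt.zi) hM0 .bi .z .b (hat (rf_4 hy) 3 rfl) h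
  · exact dp_zi_3_s hy j u hu h
theorem dp_zi_5_s (hy : Hy g H)
    (j u : ℕ) (hu : u < M) (h : dp_zi_5 j u = true) : Gd g H Lt.zi u := by
  unfold dp_zi_5 at h
  rcases brec_true h with h | h
  · exact dp_zi_2_s hy j u hu h
  · exact dp_zi_4_s hy j u hu h
theorem dp_zi_6_s (hy : Hy g H)
    (j u : ℕ) (hu : u < M) (h : dp_zi_6 j u = true) : Gd g H Lt.zi u := by
  unfold dp_zi_6 at h
  rcases brec_true h with h | h
  · exact dp_zi_1_s hy j u hu h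
  · exact dp_zi_5_s hy j u hu h
theorem dp_zi_7_s (hy : Hy g H)
    (j u : ℕ) (hu : u < M) (h : dp_zi_7 j u = true) : Gd g H Lt.zi u := by
  unfold dp_zi_7 at h
  rcases brec_true h with h | h
  · exact lF3_good (T := T) (x := Lt.zi) hM0 .a .z .ai (hat (rb_5 hy) 0 rfl) h
  · exact lS_good (T := T) (x := Lt.zi) hM0 hu [Lt.d, Lt.z, Lt.di] (hat (rb_2 hy) 0 rfl) h
theorem dp_zi_8_s (hy : Hy g H)
    (j u : ℕ) (hu : u < M) (h : dp_zi_8 j u = true) : Gd g H Lt.zi u := by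
  unfold dp_zi_8 at h
  rcases brec_true h with h | h
  · exact lS_good (T := T) (x := Lt.zi) hM0 hu [Lt.bi, Lt.z, Lt.b] (hat (rf_4 hy) 3 rfl) h
  · exact dp_zi_7_s hy j u hu h
theorem dp_zi_9_s (hy : Hy g H)
    (j u : ℕ) (hu : u < M) (h : dp_zi_9 j u = true) : Gd g H Lt.zi u := by
  unfold dp_zi_9 at h
  rcases brec_true h with h | h
  · exact lS_good (T := T) (x := Lt.zi) hM0 hu [Lt.ti, Lt.z, Lt.t] (hat (rf_1 hy) 3 rfl) h
  · exact lF3_good (T := T) (x := Lt.zi) hM0 .ai .z .a (hat (rf_5 hy) 3 rfl) h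
theorem dp_zi_10_s (hy : Hy g H)
    (j u : ℕ) (hu : u < M) (h : dp_zi_10 j u = true) : Gd g H Lt.zi u := by
  unfold dp_zi_10 at h
  rcases brec_true h with h | h
  · exact lS_good (T := T) (x := Lt.zi) hM0 hu [Lt.c, Lt.z, Lt.ci] (hat (rb_3 hy) 0 rfl) h
  · exact dp_zi_9_s hy j u hu h
theorem dp_zi_11_s (hy : Hy g H)
    (j u : ℕ) (hu : u < M) (h : dp_zi_11 j u = true) : Gd g H Lt.zi u := by
  unfold dp_zi_11 at h
  rcases brec_true h with h | h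
  · exact dp_zi_8_s hy j u hu h
  · exact dp_zi_10_s hy j u hu h
theorem dp_zi_12_s (hy : Hy g H)
    (j u : ℕ) (hu : u < M) (h : dp_zi_12 j u = true) : Gd g H Lt.zi u := by
  unfold dp_zi_12 at h
  rcases brec_true h with h | h
  · exact lS_good (T := T) (x := Lt.zi) hM0 hu [Lt.di, Lt.z, Lt.d] (hat (rf_2 hy) 3 rfl) h
  · exact lF3_good (T := T) (x := Lt.zi) hM0 .d .z .di (hat (rb_2 hy) 0 rfl) h
theorem dp_zi_13_s (hy : Hy g H)
    (j u : ℕ) (hu : u < M) (h : dp_zi_13 j u = true) : Gd g H Lt.zi u := by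
  unfold dp_zi_13 at h
  rcases brec_true h with h | h
  · exact lF3_good (T := T) (x := Lt.zi) hM0 .b .z .bi (hat (rb_4 hy) 0 rfl) h
  · exact lS_good (T := T) (x := Lt.zi) hM0 hu [Lt.b, Lt.z, Lt.bi] (hat (rb_4 hy) 0 rfl) h
theorem dp_zi_14_s (hy : Hy g H)
    (j u : ℕ) (hu : u < M) (h : dp_zi_14 j u = true) : Gd g H Lt.zi u := by
  unfold dp_zi_14 at h
  rcases brec_true h with h | h
  · exact dp_zi_12_s hy j u hu h
  · exact dp_zi_13_s hy j u hu h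
theorem dp_zi_15_s (hy : Hy g H)
    (j u : ℕ) (hu : u < M) (h : dp_zi_15 j u = true) : Gd g H Lt.zi u := by
  unfold dp_zi_15 at h
  rcases brec_true h with h | h
  · exact lF3_good (T := T) (x := Lt.zi) hM0 .t .z .ti (hat (rb_1 hy) 0 rfl) h
  · exact lF3_good (T := T) (x := Lt.zi) hM0 .Ti .z .T (hat (rf_0 hy) 3 rfl) h
theorem dp_zi_16_s (hy : Hy g H)
    (j u : ℕ) (hu : u < M) (h : dp_zi_16 j u = true) : Gd g H Lt.zi u := by
  unfold dp_zi_16 at h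
  rcases brec_true h with h | h
  · exact lF3_good (T := T) (x := Lt.zi) hM0 .ti .z .t (hat (rf_1 hy) 3 rfl) h
  · exact dp_zi_15_s hy j u hu h
theorem dp_zi_17_s (hy : Hy g H)
    (j u : ℕ) (hu : u < M) (h : dp_zi_17 j u = true) : Gd g H Lt.zi u := by
  unfold dp_zi_17 at h
  rcases brec_true h with h | h
  · exact lF3_good (T := T) (x := Lt.zi) hM0 .di .z .d (hat (rf_2 hy) 3 rfl) h
  · exact lS_good (T := T) (x := Lt.zi) hM0 hu [Lt.a, Lt.z, Lt.ai] (hat (rb_5 hy) 0 rfl) h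
theorem dp_zi_18_s (hy : Hy g H)
    (j u : ℕ) (hu : u < M) (h : dp_zi_18 j u = true) : Gd g H Lt.zi u := by
  unfold dp_zi_18 at h
  rcases brec_true h with h | h
  · exact lS_good (T := T) (x := Lt.zi) hM0 hu [Lt.ai, Lt.z, Lt.a] (hat (rf_5 hy) 3 rfl) h
  · exact lF3_good (T := T) (x := Lt.zi) hM0 .T .z .Ti (hat (rb_0 hy) 0 rfl) h
theorem dp_zi_19_s (hy : Hy g H)
    (j u : ℕ) (hu : u < M) (h : dp_zi_19 j u = true) : Gd g H Lt.zi u := by
  unfold dp_zi_19 at h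
  rcases brec_true h with h | h
  · exact dp_zi_17_s hy j u hu h
  · exact dp_zi_18_s hy j u hu h
theorem dp_zi_20_s (hy : Hy g H)
    (j u : ℕ) (hu : u < M) (h : dp_zi_20 j u = true) : Gd g H Lt.zi u := by
  unfold dp_zi_20 at h
  rcases brec_true h with h | h
  · exact dp_zi_16_s hy j u hu h
  · exact dp_zi_19_s hy j u hu h
theorem dp_zi_21_s (hy : Hy g H)
    (j u : ℕ) (hu : u < M) (h : dp_zi_21 j u = true) : Gd g H Lt.zi u := by
  unfold dp_zi_21 at h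
  rcases brec_true h with h | h
  · exact dp_zi_14_s hy j u hu h
  · exact dp_zi_20_s hy j u hu h
theorem dp_zi_22_s (hy : Hy g H)
    (j u : ℕ) (hu : u < M) (h : dp_zi_22 j u = true) : Gd g H Lt.zi u := by
  unfold dp_zi_22 at h
  rcases brec_true h with h | h
  · exact dp_zi_11_s hy j u hu h
  · exact dp_zi_21_s hy j u hu h
theorem dp_zi_23_s (hy : Hy g H)
    (j u : ℕ) (hu : u < M) (h : dp_zi_23 j u = true) : Gd g H Lt.zi u := by
  unfold dp_zi_23 at h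
  rcases brec_true h with h | h
  · exact dp_zi_6_s hy j u hu h
  · exact dp_zi_22_s hy j u hu h
theorem dp_zi_24_s (hy : Hy g H)
    (j u : ℕ) (hu : u < M) (h : dp_zi_24 j u = true) : Gd g H Lt.zi u := by
  unfold dp_zi_24 at h
  rcases brec_true h with h | h
  · exact lF1_good (T := T) (x := Lt.zi) hM0 .z (hat (rf_33 hy) 0 rfl) h
  · exact dp_zi_23_s hy j u hu h
theorem snd_zi (hy : Hy g H)
    (j u : ℕ) (hu : u < M) (h : disp_zi j u = true) : Gd g H Lt.zi u := by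
  unfold disp_zi at h
  rcases brec_true h with h | h
  · exact lPar_good (T := T) (x := Lt.zi) (x' := Lt.z) (by decide) rfl (ivt hy _ _ rfl) h
  · rcases brec_true h with h | h
    · exact lDef_good (T := T) (x := Lt.zi) (by decide) rfl h
    · exact dp_zi_24_s hy j u hu h
theorem snc_zi (hy : Hy g H)
    (j u : ℕ) (hu : u < M) (h : chk_zi j u = true) : (T Lt.zi u < A ∧ Gd g H Lt.zi u) ∨ (A ≤ T Lt.zi u ∧ MG u < A) := by
  unfold chk_zi at h
  cases hb : Nat.ble A (T_zi u) with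
  | true => rw [hb] at h; exact Or.inr ⟨le_of_ble hb, le_of_ble h⟩
  | false => rw [hb] at h; exact Or.inl ⟨lt_of_ble_false hb, snd_zi hy j u hu h⟩
theorem dM_0_s (hy : Hy g H) (j z1 z2 u : ℕ) (h : dM_0 j z1 z2 u = true) : GdM g H u := by
  unfold dM_0 at h
  rcases brec_true h with h | h
  · rcases brec_true h with h | h
    · exact mCo_good (T := T) (y := .Ti) hM0 h
    · exact mCo_good (T := T) (y := .z) hM0 h
  · rcases brec_true h with h | h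
    · exact mCo_good (T := T) (y := .T) hM0 h
    · rcases brec_true h with h | h
      · exact mCo_good (T := T) (y := .a) hM0 h
      · exact mCo_good (T := T) (y := .ti) hM0 h
theorem dM_1_s (hy : Hy g H) (j z1 z2 u : ℕ) (h : dM_1 j z1 z2 u = true) : GdM g H u := by
  unfold dM_1 at h
  rcases brec_true h with h | h
  · rcases brec_true h with h | h
    · exact mCo_good (T := T) (y := .ai) hM0 h
    · exact mCo_good (T := T) (y := .ci) hM0 h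
  · rcases brec_true h with h | h
    · exact mCo_good (T := T) (y := .di) hM0 h
    · exact mCo_good (T := T) (y := .t) hM0 h
theorem dM_2_s (hy : Hy g H) (j z1 z2 u : ℕ) (h : dM_2 j z1 z2 u = true) : GdM g H u := by
  unfold dM_2 at h
  rcases brec_true h with h | h
  · exact mCo_good (T := T) (y := .c) hM0 h
  · rcases brec_true h with h | h
    · exact mCo_good (T := T) (y := .b) hM0 h
    · exact mCo_good (T := T) (y := .d) hM0 h
theorem dM_3_s (hy : Hy g H) (j z1 z2 u : ℕ) (h : dM_3 j z1 z2 u = true) : GdM g H u := by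
  unfold dM_3 at h
  rcases brec_true h with h | h
  · exact mCo_good (T := T) (y := .bi) hM0 h
  · rcases brec_true h with h | h
    · exact mCo_good (T := T) (y := .zi) hM0 h
    · exact mRel_good (T := T) hM0 [Lt.ai, Lt.ci, Lt.ai, Lt.c] [Lt.ci, Lt.ai] (pat hy (rb_9 hy) 3 rfl) h
theorem dM_4_s (hy : Hy g H) (j z1 z2 u : ℕ) (h : dM_4 j z1 z2 u = true) : GdM g H u := by
  unfold dM_4 at h
  rcases brec_true h with h | h
  · rcases brec_true h with h | h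
    · rcases brec_true h with h | h
      · exact mRel_good (T := T) hM0 [Lt.a] [Lt.ci, Lt.a, Lt.c, Lt.a, Lt.ci] (pat hy (rb_9 hy) 1 rfl) h
      · exact mRel_good (T := T) hM0 [Lt.ti, Lt.b] [Lt.bi, Lt.ti, Lt.b, Lt.di] (pat hy (rf_16 hy) 3 rfl) h
    · rcases brec_true h with h | h
      · exact mRel_good (T := T) hM0 [Lt.bi, Lt.t] [Lt.di, Lt.bi, Lt.t, Lt.bi] (pat hy (rf_16 hy) 0 rfl) h
      · exact mRel_good (T := T) hM0 [Lt.a, Lt.bi, Lt.ai] [Lt.b, Lt.a, Lt.bi] (pat hy (rb_8 hy) 3 rfl) h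
  · rcases brec_true h with h | h
    · rcases brec_true h with h | h
      · exact mRel_good (T := T) hM0 [Lt.T, Lt.ci, Lt.a, Lt.Ti] [Lt.ci, Lt.a] (pat hy (rb_10 hy) 3 rfl) h
      · exact mRel_good (T := T) hM0 [Lt.ti, Lt.di, Lt.ai, Lt.d, Lt.t] [Lt.a] (pat hy (rb_12 hy) 4 rfl) h
    · rcases brec_true h with h | h
      · exact mRel_good (T := T) hM0 [Lt.ti, Lt.b, Lt.di] [Lt.b, Lt.ti, Lt.b] (pat hy (rb_16 hy) 4 rfl) h
      · rcases brec_true h with h | h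
        · exact mRel_good (T := T) hM0 [Lt.a, Lt.zi, Lt.ai] [Lt.zi] (pat hy (rf_5 hy) 1 rfl) h
        · exact mRel_good (T := T) hM0 [Lt.bi, Lt.zi, Lt.b] [Lt.zi] (pat hy (rb_4 hy) 2 rfl) h
theorem dM_5_s (hy : Hy g H) (j z1 z2 u : ℕ) (h : dM_5 j z1 z2 u = true) : GdM g H u := by
  unfold dM_5 at h
  rcases brec_true h with h | h
  · rcases brec_true h with h | h
    · rcases brec_true h with h | h
      · exact mRel_good (T := T) hM0 [Lt.t, Lt.c] [Lt.c, Lt.bi, Lt.t, Lt.b] (pat hy (rf_17 hy) 2 rfl) h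
      · exact mRel_good (T := T) hM0 [Lt.t, Lt.b] [Lt.b, Lt.ci, Lt.t, Lt.c] (pat hy (rb_17 hy) 0 rfl) h
    · rcases brec_true h with h | h
      · exact mRel_good (T := T) hM0 [Lt.ti] [Lt.bi, Lt.t, Lt.di, Lt.ti, Lt.b] (pat hy (rb_15 hy) 0 rfl) h
      · rcases brec_true h with h | h
        · exact mRel_good (T := T) hM0 [Lt.ti, Lt.b, Lt.d, Lt.bi, Lt.t, Lt.b] [] (pat hy (rf_16 hy) 3 rfl) h
        · exact mRel_good (T := T) hM0 [Lt.bi, Lt.T, Lt.b] [Lt.c, Lt.T, Lt.ci] (pat hy (rb_18 hy) 5 rfl) h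
  · rcases brec_true h with h | h
    · rcases brec_true h with h | h
      · exact mRel_good (T := T) hM0 [Lt.ai, Lt.z, Lt.a] [Lt.z] (pat hy (rf_5 hy) 3 rfl) h
      · exact mRel_good (T := T) hM0 [Lt.d, Lt.z] [Lt.z, Lt.d] (pat hy (rb_2 hy) 0 rfl) h
    · rcases brec_true h with h | h
      · exact mRel_good (T := T) hM0 [Lt.ai, Lt.d, Lt.ai] [Lt.d, Lt.ai, Lt.d] (pat hy (rb_13 hy) 0 rfl) h
      · rcases brec_true h with h | h
        · exact mRel_good (T := T) hM0 [Lt.a, Lt.Ti, Lt.ai, Lt.c] [Lt.c, Lt.Ti] (pat hy (rb_10 hy) 5 rfl) h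
        · exact mRel_good (T := T) hM0 [Lt.d, Lt.zi, Lt.di] [Lt.zi] (pat hy (rf_2 hy) 1 rfl) h
theorem dM_6_s (hy : Hy g H) (j z1 z2 u : ℕ) (h : dM_6 j z1 z2 u = true) : GdM g H u := by
  unfold dM_6 at h
  rcases brec_true h with h | h
  · exact dM_4_s hy j z1 z2 u h
  · exact dM_5_s hy j z1 z2 u h
theorem dM_7_s (hy : Hy g H) (j z1 z2 u : ℕ) (h : dM_7 j z1 z2 u = true) : GdM g H u := by
  unfold dM_7 at h
  rcases brec_true h with h | h
  · rcases brec_true h with h | h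
    · exact mRel_good (T := T) hM0 [Lt.a, Lt.di, Lt.a] [Lt.di, Lt.a, Lt.di] (pat hy (rf_13 hy) 3 rfl) h
    · exact mRel_good (T := T) hM0 [Lt.bi, Lt.t, Lt.di] [Lt.ti, Lt.bi, Lt.t] (pat hy (rf_15 hy) 0 rfl) h
  · rcases brec_true h with h | h
    · exact mRel_good (T := T) hM0 [Lt.b, Lt.ai, Lt.b] [Lt.ai, Lt.b, Lt.ai] (pat hy (rf_8 hy) 1 rfl) h
    · rcases brec_true h with h | h
      · exact mRel_good (T := T) hM0 [Lt.ti, Lt.di, Lt.t, Lt.T, Lt.di] [Lt.T] (pat hy (rb_11 hy) 5 rfl) h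
      · exact mRel_good (T := T) hM0 [Lt.ci, Lt.ai, Lt.ci, Lt.a, Lt.c] [Lt.ai] (pat hy (rf_9 hy) 3 rfl) h
theorem dM_8_s (hy : Hy g H) (j z1 z2 u : ℕ) (h : dM_8 j z1 z2 u = true) : GdM g H u := by
  unfold dM_8 at h
  rcases brec_true h with h | h
  · rcases brec_true h with h | h
    · rcases brec_true h with h | h
      · exact mRel_good (T := T) hM0 [Lt.t, Lt.bi] [Lt.b, Lt.d, Lt.bi, Lt.t] (pat hy (rb_16 hy) 2 rfl) h
      · exact mRel_good (T := T) hM0 [Lt.bi, Lt.ti, Lt.b, Lt.ci, Lt.t] [Lt.ci] (pat hy (rf_17 hy) 4 rfl) h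
    · rcases brec_true h with h | h
      · exact mRel_good (T := T) hM0 [Lt.t, Lt.T] [Lt.T, Lt.ti, Lt.Ti, Lt.t] (pat hy (rf_7 hy) 5 rfl) h
      · exact mRel_good (T := T) hM0 [Lt.Ti, Lt.t, Lt.T, Lt.ti, Lt.T, Lt.t] [] (pat hy (rf_7 hy) 4 rfl) h
  · rcases brec_true h with h | h
    · rcases brec_true h with h | h
      · exact mRel_good (T := T) hM0 [Lt.t, Lt.di, Lt.ti, Lt.b, Lt.t] [Lt.b] (pat hy (rf_15 hy) 1 rfl) h
      · exact mRel_good (T := T) hM0 [Lt.t, Lt.bi, Lt.t, Lt.di] [Lt.bi, Lt.t] (pat hy (rf_15 hy) 5 rfl) h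
    · rcases brec_true h with h | h
      · exact mRel_good (T := T) hM0 [Lt.ci, Lt.bi, Lt.Ti, Lt.b] [Lt.Ti, Lt.ci] (pat hy (rf_18 hy) 3 rfl) h
      · rcases brec_true h with h | h
        · exact mRel_good (T := T) hM0 [Lt.ci, Lt.a, Lt.Ti, Lt.ai] [Lt.Ti, Lt.ci] (pat hy (rb_10 hy) 4 rfl) h
        · exact mRel_good (T := T) hM0 [Lt.d, Lt.a] [Lt.a, Lt.di, Lt.ai, Lt.d] (pat hy (rf_13 hy) 2 rfl) h
theorem dM_9_s (hy : Hy g H) (j z1 z2 u : ℕ) (h : dM_9 j z1 z2 u = true) : GdM g H u := by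
  unfold dM_9 at h
  rcases brec_true h with h | h
  · exact dM_7_s hy j z1 z2 u h
  · exact dM_8_s hy j z1 z2 u h
theorem dM_10_s (hy : Hy g H) (j z1 z2 u : ℕ) (h : dM_10 j z1 z2 u = true) : GdM g H u := by
  unfold dM_10 at h
  rcases brec_true h with h | h
  · rcases brec_true h with h | h
    · rcases brec_true h with h | h
      · exact mRel_good (T := T) hM0 [Lt.bi, Lt.t, Lt.b, Lt.ti] [Lt.di, Lt.bi] (pat hy (rf_16 hy) 0 rfl) h
      · exact mRel_good (T := T) hM0 [Lt.d, Lt.ci] [Lt.ci, Lt.di, Lt.c, Lt.d] (pat hy (rb_14 hy) 2 rfl) h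
    · rcases brec_true h with h | h
      · exact mRel_good (T := T) hM0 [Lt.t] [Lt.b, Lt.ti, Lt.bi, Lt.t, Lt.d] (pat hy (rf_15 hy) 1 rfl) h
      · exact mRel_good (T := T) hM0 [Lt.ai, Lt.ci] [Lt.c, Lt.ai, Lt.ci, Lt.ai] (pat hy (rf_9 hy) 4 rfl) h
  · rcases brec_true h with h | h
    · rcases brec_true h with h | h
      · exact mRel_good (T := T) hM0 [Lt.ai, Lt.d, Lt.ai, Lt.di, Lt.a] [Lt.d] (pat hy (rb_13 hy) 0 rfl) h
      · exact mRel_good (T := T) hM0 [Lt.ai, Lt.di] [Lt.di, Lt.a, Lt.d, Lt.ai] (pat hy (rb_13 hy) 2 rfl) h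
    · rcases brec_true h with h | h
      · exact mRel_good (T := T) hM0 [Lt.ai, Lt.d, Lt.a, Lt.di] [Lt.di, Lt.ai] (pat hy (rf_13 hy) 1 rfl) h
      · rcases brec_true h with h | h
        · exact mRel_good (T := T) hM0 [Lt.ti, Lt.b, Lt.ci, Lt.t, Lt.c, Lt.bi] [] (pat hy (rf_17 hy) 5 rfl) h
        · exact mRel_good (T := T) hM0 [Lt.ai, Lt.bi, Lt.a, Lt.bi] [Lt.bi, Lt.a] (pat hy (rb_8 hy) 1 rfl) h
theorem dM_11_s (hy : Hy g H) (j z1 z2 u : ℕ) (h : dM_11 j z1 z2 u = true) : GdM g H u := by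
  unfold dM_11 at h
  rcases brec_true h with h | h
  · rcases brec_true h with h | h
    · rcases brec_true h with h | h
      · exact mRel_good (T := T) hM0 [Lt.d, Lt.c, Lt.d, Lt.ci, Lt.di] [Lt.c] (pat hy (rb_14 hy) 0 rfl) h
      · exact mRel_good (T := T) hM0 [Lt.ai, Lt.b, Lt.ai, Lt.bi, Lt.a, Lt.bi] [] (pat hy (rb_8 hy) 5 rfl) h
    · rcases brec_true h with h | h
      · exact mRel_good (T := T) hM0 [Lt.ai, Lt.b, Lt.a, Lt.bi] [Lt.bi, Lt.ai] (pat hy (rf_8 hy) 2 rfl) h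
      · rcases brec_true h with h | h
        · exact mRel_good (T := T) hM0 [Lt.ti, Lt.b, Lt.t] [Lt.d, Lt.ti, Lt.b] (pat hy (rf_15 hy) 3 rfl) h
        · exact mRel_good (T := T) hM0 [Lt.ti, Lt.b, Lt.di, Lt.bi, Lt.t] [Lt.b] (pat hy (rb_16 hy) 4 rfl) h
  · rcases brec_true h with h | h
    · rcases brec_true h with h | h
      · exact mRel_good (T := T) hM0 [Lt.t, Lt.b, Lt.ti, Lt.b] [Lt.b, Lt.di] (pat hy (rf_16 hy) 1 rfl) h
      · exact mRel_good (T := T) hM0 [Lt.c, Lt.d, Lt.c, Lt.di, Lt.ci, Lt.di] [] (pat hy (rf_14 hy) 0 rfl) h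
    · rcases brec_true h with h | h
      · exact mRel_good (T := T) hM0 [Lt.ci, Lt.ai, Lt.c, Lt.a] [Lt.a, Lt.ci] (pat hy (rb_9 hy) 4 rfl) h
      · rcases brec_true h with h | h
        · exact mRel_good (T := T) hM0 [Lt.c] [Lt.a, Lt.Ti, Lt.ai, Lt.c, Lt.T] (pat hy (rf_10 hy) 1 rfl) h
        · exact mRel_good (T := T) hM0 [Lt.a, Lt.c, Lt.ai] [Lt.ci, Lt.a, Lt.c] (pat hy (rb_9 hy) 1 rfl) h
theorem dM_12_s (hy : Hy g H) (j z1 z2 u : ℕ) (h : dM_12 j z1 z2 u = true) : GdM g H u := by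
  unfold dM_12 at h
  rcases brec_true h with h | h
  · exact dM_10_s hy j z1 z2 u h
  · exact dM_11_s hy j z1 z2 u h
theorem dM_13_s (hy : Hy g H) (j z1 z2 u : ℕ) (h : dM_13 j z1 z2 u = true) : GdM g H u := by
  unfold dM_13 at h
  rcases brec_true h with h | h
  · exact dM_9_s hy j z1 z2 u h
  · exact dM_12_s hy j z1 z2 u h
theorem dM_14_s (hy : Hy g H) (j z1 z2 u : ℕ) (h : dM_14 j z1 z2 u = true) : GdM g H u := by
  unfold dM_14 at h
  rcases brec_true h with h | h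
  · exact dM_6_s hy j z1 z2 u h
  · exact dM_13_s hy j z1 z2 u h
theorem dM_15_s (hy : Hy g H) (j z1 z2 u : ℕ) (h : dM_15 j z1 z2 u = true) : GdM g H u := by
  unfold dM_15 at h
  rcases brec_true h with h | h
  · rcases brec_true h with h | h
    · rcases brec_true h with h | h
      · exact mRel_good (T := T) hM0 [Lt.T, Lt.ai, Lt.c, Lt.Ti, Lt.ci] [Lt.ai] (pat hy (rf_10 hy) 5 rfl) h
      · exact mRel_good (T := T) hM0 [Lt.ci, Lt.di, Lt.c, Lt.d, Lt.c] [Lt.d] (pat hy (rf_14 hy) 4 rfl) h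
    · rcases brec_true h with h | h
      · exact mRel_good (T := T) hM0 [Lt.b, Lt.ci, Lt.ti, Lt.c, Lt.bi] [Lt.ti] (pat hy (rb_17 hy) 1 rfl) h
      · exact mRel_good (T := T) hM0 [Lt.a, Lt.c, Lt.a, Lt.ci] [Lt.c, Lt.a] (pat hy (rf_9 hy) 0 rfl) h
  · rcases brec_true h with h | h
    · rcases brec_true h with h | h
      · exact mRel_good (T := T) hM0 [Lt.ci] [Lt.a, Lt.ci, Lt.ai, Lt.ci, Lt.a] (pat hy (rb_9 hy) 4 rfl) h
      · exact mRel_good (T := T) hM0 [Lt.bi, Lt.T] [Lt.c, Lt.T, Lt.ci, Lt.bi] (pat hy (rb_18 hy) 5 rfl) h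
    · rcases brec_true h with h | h
      · exact mRel_good (T := T) hM0 [Lt.c, Lt.d, Lt.c, Lt.di, Lt.ci] [Lt.d] (pat hy (rf_14 hy) 0 rfl) h
      · rcases brec_true h with h | h
        · exact mRel_good (T := T) hM0 [Lt.ti, Lt.b, Lt.ci, Lt.t, Lt.c] [Lt.b] (pat hy (rf_17 hy) 5 rfl) h
        · exact mRel_good (T := T) hM0 [Lt.a, Lt.z, Lt.ai] [Lt.z] (pat hy (rb_5 hy) 0 rfl) h
theorem dM_16_s (hy : Hy g H) (j z1 z2 u : ℕ) (h : dM_16 j z1 z2 u = true) : GdM g H u := by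
  unfold dM_16 at h
  rcases brec_true h with h | h
  · rcases brec_true h with h | h
    · rcases brec_true h with h | h
      · exact mRel_good (T := T) hM0 [Lt.a, Lt.c, Lt.ai, Lt.ci] [Lt.ci, Lt.a] (pat hy (rb_9 hy) 1 rfl) h
      · exact mRel_good (T := T) hM0 [Lt.d, Lt.ai] [Lt.ai, Lt.d, Lt.ai, Lt.di] (pat hy (rf_13 hy) 0 rfl) h
    · rcases brec_true h with h | h
      · exact mRel_good (T := T) hM0 [Lt.di, Lt.zi] [Lt.zi, Lt.di] (pat hy (rb_2 hy) 2 rfl) h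
      · exact mRel_good (T := T) hM0 [Lt.ai, Lt.di, Lt.a] [Lt.di, Lt.a, Lt.d] (pat hy (rb_13 hy) 2 rfl) h
  · rcases brec_true h with h | h
    · rcases brec_true h with h | h
      · exact mRel_good (T := T) hM0 [Lt.di] [Lt.ti, Lt.b, Lt.ti, Lt.bi, Lt.t] (pat hy (rf_15 hy) 2 rfl) h
      · exact mRel_good (T := T) hM0 [Lt.b, Lt.zi, Lt.bi] [Lt.zi] (pat hy (rf_4 hy) 1 rfl) h
    · rcases brec_true h with h | h
      · exact mRel_good (T := T) hM0 [Lt.ai, Lt.d, Lt.t] [Lt.d, Lt.t, Lt.a] (pat hy (rb_12 hy) 0 rfl) h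
      · rcases brec_true h with h | h
        · exact mRel_good (T := T) hM0 [Lt.d, Lt.c, Lt.di, Lt.ci, Lt.di, Lt.c] [] (pat hy (rf_14 hy) 1 rfl) h
        · exact mRel_good (T := T) hM0 [Lt.c, Lt.a, Lt.ci] [Lt.ai, Lt.c, Lt.a] (pat hy (rf_9 hy) 1 rfl) h
theorem dM_17_s (hy : Hy g H) (j z1 z2 u : ℕ) (h : dM_17 j z1 z2 u = true) : GdM g H u := by
  unfold dM_17 at h
  rcases brec_true h with h | h
  · exact dM_15_s hy j z1 z2 u h
  · exact dM_16_s hy j z1 z2 u h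
theorem dM_18_s (hy : Hy g H) (j z1 z2 u : ℕ) (h : dM_18 j z1 z2 u = true) : GdM g H u := by
  unfold dM_18 at h
  rcases brec_true h with h | h
  · rcases brec_true h with h | h
    · rcases brec_true h with h | h
      · exact mRel_good (T := T) hM0 [Lt.ai, Lt.d, Lt.ai, Lt.di] [Lt.d, Lt.ai] (pat hy (rb_13 hy) 0 rfl) h
      · exact mRel_good (T := T) hM0 [Lt.T, Lt.d, Lt.Ti, Lt.ti] [Lt.ti, Lt.di] (pat hy (rf_11 hy) 1 rfl) h
    · rcases brec_true h with h | h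
      · exact mRel_good (T := T) hM0 [Lt.d] [Lt.Ti, Lt.ti, Lt.di, Lt.t, Lt.T] (pat hy (rf_11 hy) 2 rfl) h
      · exact mRel_good (T := T) hM0 [Lt.ai, Lt.c, Lt.Ti] [Lt.Ti, Lt.ai, Lt.c] (pat hy (rf_10 hy) 0 rfl) h
  · rcases brec_true h with h | h
    · rcases brec_true h with h | h
      · exact mRel_good (T := T) hM0 [Lt.ai, Lt.c] [Lt.T, Lt.ai, Lt.c, Lt.Ti] (pat hy (rb_10 hy) 1 rfl) h
      · exact mRel_good (T := T) hM0 [Lt.d, Lt.z, Lt.di] [Lt.z] (pat hy (rb_2 hy) 0 rfl) h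
    · rcases brec_true h with h | h
      · exact mRel_good (T := T) hM0 [Lt.c, Lt.bi, Lt.t, Lt.b, Lt.ci, Lt.ti] [] (pat hy (rb_17 hy) 4 rfl) h
      · rcases brec_true h with h | h
        · exact mRel_good (T := T) hM0 [Lt.d, Lt.c, Lt.di, Lt.ci, Lt.di] [Lt.ci] (pat hy (rf_14 hy) 1 rfl) h
        · exact mRel_good (T := T) hM0 [Lt.ci] [Lt.a, Lt.Ti, Lt.ai, Lt.ci, Lt.T] (pat hy (rf_19 hy) 1 rfl) h
theorem dM_19_s (hy : Hy g H) (j z1 z2 u : ℕ) (h : dM_19 j z1 z2 u = true) : GdM g H u := by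
  unfold dM_19 at h
  rcases brec_true h with h | h
  · rcases brec_true h with h | h
    · rcases brec_true h with h | h
      · exact mRel_good (T := T) hM0 [Lt.c, Lt.a, Lt.T, Lt.ai, Lt.ci, Lt.Ti] [] (pat hy (rf_19 hy) 3 rfl) h
      · exact mRel_good (T := T) hM0 [Lt.ai, Lt.z] [Lt.z, Lt.ai] (pat hy (rf_5 hy) 3 rfl) h
    · rcases brec_true h with h | h
      · exact mRel_good (T := T) hM0 [Lt.ci, Lt.a] [Lt.T, Lt.ci, Lt.a, Lt.Ti] (pat hy (rf_10 hy) 3 rfl) h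
      · rcases brec_true h with h | h
        · exact mRel_good (T := T) hM0 [Lt.c, Lt.a, Lt.ci, Lt.ai, Lt.ci] [Lt.ai] (pat hy (rf_9 hy) 1 rfl) h
        · exact mRel_good (T := T) hM0 [Lt.b, Lt.ci] [Lt.t, Lt.b, Lt.ci, Lt.ti] (pat hy (rf_17 hy) 0 rfl) h
  · rcases brec_true h with h | h
    · rcases brec_true h with h | h
      · exact mRel_good (T := T) hM0 [Lt.ti, Lt.c, Lt.bi] [Lt.c, Lt.bi, Lt.ti] (pat hy (rb_17 hy) 3 rfl) h
      · exact mRel_good (T := T) hM0 [Lt.ti, Lt.z, Lt.t] [Lt.z] (pat hy (rf_1 hy) 3 rfl) h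
    · rcases brec_true h with h | h
      · exact mRel_good (T := T) hM0 [Lt.bi, Lt.z, Lt.b] [Lt.z] (pat hy (rf_4 hy) 3 rfl) h
      · rcases brec_true h with h | h
        · exact mRel_good (T := T) hM0 [Lt.c, Lt.Ti] [Lt.a, Lt.Ti, Lt.ai, Lt.c] (pat hy (rf_10 hy) 1 rfl) h
        · exact mRel_good (T := T) hM0 [Lt.ti, Lt.d, Lt.t, Lt.T, Lt.d] [Lt.T] (pat hy (rf_11 hy) 4 rfl) h
theorem dM_20_s (hy : Hy g H) (j z1 z2 u : ℕ) (h : dM_20 j z1 z2 u = true) : GdM g H u := by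
  unfold dM_20 at h
  rcases brec_true h with h | h
  · exact dM_18_s hy j z1 z2 u h
  · exact dM_19_s hy j z1 z2 u h
theorem dM_21_s (hy : Hy g H) (j z1 z2 u : ℕ) (h : dM_21 j z1 z2 u = true) : GdM g H u := by
  unfold dM_21 at h
  rcases brec_true h with h | h
  · exact dM_17_s hy j z1 z2 u h
  · exact dM_20_s hy j z1 z2 u h
theorem dM_22_s (hy : Hy g H) (j z1 z2 u : ℕ) (h : dM_22 j z1 z2 u = true) : GdM g H u := by
  unfold dM_22 at h
  rcases brec_true h with h | h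
  · rcases brec_true h with h | h
    · rcases brec_true h with h | h
      · exact mRel_good (T := T) hM0 [Lt.t, Lt.b, Lt.ci, Lt.ti, Lt.c] [Lt.b] (pat hy (rb_17 hy) 0 rfl) h
      · exact mRel_good (T := T) hM0 [Lt.a, Lt.ci, Lt.ai, Lt.ci] [Lt.ci, Lt.ai] (pat hy (rf_9 hy) 2 rfl) h
    · rcases brec_true h with h | h
      · exact mRel_good (T := T) hM0 [Lt.t, Lt.Ti, Lt.t] [Lt.Ti, Lt.t, Lt.Ti] (pat hy (rf_7 hy) 3 rfl) h
      · exact mRel_good (T := T) hM0 [Lt.ci, Lt.a] [Lt.Ti, Lt.ci, Lt.a, Lt.T] (pat hy (rb_10 hy) 4 rfl) h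
  · rcases brec_true h with h | h
    · rcases brec_true h with h | h
      · exact mRel_good (T := T) hM0 [Lt.bi, Lt.ti, Lt.b, Lt.di] [Lt.ti, Lt.b] (pat hy (rb_16 hy) 3 rfl) h
      · exact mRel_good (T := T) hM0 [Lt.a, Lt.z] [Lt.z, Lt.a] (pat hy (rb_5 hy) 0 rfl) h
    · rcases brec_true h with h | h
      · exact mRel_good (T := T) hM0 [Lt.c, Lt.T, Lt.ci, Lt.bi] [Lt.bi, Lt.T] (pat hy (rf_18 hy) 1 rfl) h
      · rcases brec_true h with h | h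
        · exact mRel_good (T := T) hM0 [Lt.t, Lt.ai, Lt.c, Lt.d, Lt.b, Lt.T, Lt.ti, Lt.b, Lt.a, Lt.b, Lt.c, Lt.t, Lt.ai, Lt.c, Lt.d, Lt.b, Lt.T, Lt.ti, Lt.b, Lt.a, Lt.b, Lt.c, Lt.t, Lt.ai, Lt.c, Lt.d, Lt.b, Lt.zi] [Lt.ci, Lt.bi, Lt.ai, Lt.bi, Lt.t, Lt.Ti, Lt.bi, Lt.di, Lt.ci, Lt.a, Lt.ti, Lt.ci, Lt.bi, Lt.ai, Lt.bi, Lt.t, Lt.Ti] (pat hy (rf_20 hy) 17 rfl) h
        · exact mRel_good (T := T) hM0 [Lt.a, Lt.T, Lt.ai] [Lt.c, Lt.T, Lt.ci] (pat hy (rf_10 hy) 4 rfl) h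
theorem dM_23_s (hy : Hy g H) (j z1 z2 u : ℕ) (h : dM_23 j z1 z2 u = true) : GdM g H u := by
  unfold dM_23 at h
  rcases brec_true h with h | h
  · rcases brec_true h with h | h
    · rcases brec_true h with h | h
      · exact mRel_good (T := T) hM0 [Lt.a, Lt.di] [Lt.di, Lt.a, Lt.di, Lt.ai] (pat hy (rf_13 hy) 3 rfl) h
      · exact mRel_good (T := T) hM0 [Lt.d, Lt.ai, Lt.d] [Lt.ai, Lt.d, Lt.ai] (pat hy (rf_13 hy) 0 rfl) h
    · rcases brec_true h with h | h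
      · exact mRel_good (T := T) hM0 [Lt.ci, Lt.Ti, Lt.c, Lt.a] [Lt.a, Lt.Ti] (pat hy (rf_19 hy) 1 rfl) h
      · rcases brec_true h with h | h
        · exact mRel_good (T := T) hM0 [Lt.bi, Lt.t, Lt.bi] [Lt.d, Lt.bi, Lt.t] (pat hy (rb_16 hy) 1 rfl) h
        · exact mRel_good (T := T) hM0 [Lt.di, Lt.bi, Lt.t] [Lt.bi, Lt.t, Lt.b] (pat hy (rb_16 hy) 0 rfl) h
  · rcases brec_true h with h | h
    · rcases brec_true h with h | h
      · exact mRel_good (T := T) hM0 [Lt.a, Lt.bi, Lt.a] [Lt.bi, Lt.a, Lt.bi] (pat hy (rf_8 hy) 4 rfl) h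
      · exact mRel_good (T := T) hM0 [Lt.t, Lt.b, Lt.ti, Lt.b, Lt.d] [Lt.b] (pat hy (rf_16 hy) 1 rfl) h
    · rcases brec_true h with h | h
      · exact mRel_good (T := T) hM0 [Lt.di, Lt.ai, Lt.d, Lt.ai] [Lt.ai, Lt.d] (pat hy (rb_13 hy) 5 rfl) h
      · rcases brec_true h with h | h
        · exact mRel_good (T := T) hM0 [Lt.Ti, Lt.ai, Lt.c, Lt.T] [Lt.ai, Lt.c] (pat hy (rb_10 hy) 0 rfl) h
        · exact mRel_good (T := T) hM0 [Lt.a, Lt.ti, Lt.di, Lt.a] [Lt.ti, Lt.di] (pat hy (rf_12 hy) 2 rfl) h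
theorem dM_24_s (hy : Hy g H) (j z1 z2 u : ℕ) (h : dM_24 j z1 z2 u = true) : GdM g H u := by
  unfold dM_24 at h
  rcases brec_true h with h | h
  · exact dM_22_s hy j z1 z2 u h
  · exact dM_23_s hy j z1 z2 u h
theorem dM_25_s (hy : Hy g H) (j z1 z2 u : ℕ) (h : dM_25 j z1 z2 u = true) : GdM g H u := by
  unfold dM_25 at h
  rcases brec_true h with h | h
  · rcases brec_true h with h | h
    · rcases brec_true h with h | h
      · exact mRel_good (T := T) hM0 [Lt.t, Lt.b, Lt.ci, Lt.ti] [Lt.b, Lt.ci] (pat hy (rb_17 hy) 0 rfl) h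
      · exact mRel_good (T := T) hM0 [Lt.ai, Lt.d, Lt.a] [Lt.di, Lt.ai, Lt.d] (pat hy (rf_13 hy) 1 rfl) h
    · rcases brec_true h with h | h
      · exact mRel_good (T := T) hM0 [Lt.ci, Lt.ti, Lt.c] [Lt.bi, Lt.ti, Lt.b] (pat hy (rb_17 hy) 2 rfl) h
      · exact mRel_good (T := T) hM0 [Lt.bi, Lt.t] [Lt.d, Lt.bi, Lt.t, Lt.b] (pat hy (rb_16 hy) 1 rfl) h
  · rcases brec_true h with h | h
    · rcases brec_true h with h | h
      · exact mRel_good (T := T) hM0 [Lt.d, Lt.ti, Lt.b, Lt.ti] [Lt.ti, Lt.b] (pat hy (rb_15 hy) 3 rfl) h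
      · exact mRel_good (T := T) hM0 [Lt.di, Lt.ti, Lt.b, Lt.t, Lt.bi, Lt.t] [] (pat hy (rf_15 hy) 2 rfl) h
    · rcases brec_true h with h | h
      · exact mRel_good (T := T) hM0 [Lt.bi, Lt.a, Lt.bi, Lt.ai, Lt.b] [Lt.a] (pat hy (rb_8 hy) 2 rfl) h
      · rcases brec_true h with h | h
        · exact mRel_good (T := T) hM0 [Lt.ai, Lt.b, Lt.ai] [Lt.b, Lt.ai, Lt.b] (pat hy (rb_8 hy) 5 rfl) h
        · exact mRel_good (T := T) hM0 [Lt.ai, Lt.d, Lt.t, Lt.ai] [Lt.d, Lt.t] (pat hy (rb_12 hy) 0 rfl) h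
theorem dM_26_s (hy : Hy g H) (j z1 z2 u : ℕ) (h : dM_26 j z1 z2 u = true) : GdM g H u := by
  unfold dM_26 at h
  rcases brec_true h with h | h
  · rcases brec_true h with h | h
    · rcases brec_true h with h | h
      · exact mRel_good (T := T) hM0 [Lt.ci, Lt.a, Lt.c, Lt.a, Lt.ci] [Lt.a] (pat hy (rf_9 hy) 5 rfl) h
      · exact mRel_good (T := T) hM0 [Lt.b, Lt.ci, Lt.t, Lt.c] [Lt.t, Lt.b] (pat hy (rf_17 hy) 0 rfl) h
    · rcases brec_true h with h | h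
      · exact mRel_good (T := T) hM0 [Lt.t, Lt.T] [Lt.di, Lt.t, Lt.T, Lt.di] (pat hy (rf_11 hy) 0 rfl) h
      · rcases brec_true h with h | h
        · exact mRel_good (T := T) hM0 [Lt.ti, Lt.di] [Lt.ai, Lt.ti, Lt.di, Lt.ai] (pat hy (rf_12 hy) 3 rfl) h
        · exact mRel_good (T := T) hM0 [Lt.a, Lt.T, Lt.ai, Lt.ci] [Lt.ci, Lt.T] (pat hy (rf_19 hy) 4 rfl) h
  · rcases brec_true h with h | h
    · rcases brec_true h with h | h
      · exact mRel_good (T := T) hM0 [Lt.a, Lt.Ti, Lt.ai, Lt.ci] [Lt.ci, Lt.Ti] (pat hy (rb_19 hy) 5 rfl) h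
      · exact mRel_good (T := T) hM0 [Lt.di, Lt.a, Lt.d] [Lt.ai, Lt.di, Lt.a] (pat hy (rf_13 hy) 4 rfl) h
    · rcases brec_true h with h | h
      · exact mRel_good (T := T) hM0 [Lt.ai, Lt.ci, Lt.a, Lt.c] [Lt.c, Lt.ai] (pat hy (rf_9 hy) 4 rfl) h
      · rcases brec_true h with h | h
        · exact mRel_good (T := T) hM0 [Lt.d, Lt.t, Lt.T] [Lt.t, Lt.T, Lt.di] (pat hy (rf_11 hy) 5 rfl) h
        · exact mRel_good (T := T) hM0 [Lt.bi, Lt.a, Lt.bi] [Lt.a, Lt.bi, Lt.a] (pat hy (rb_8 hy) 2 rfl) h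
theorem dM_27_s (hy : Hy g H) (j z1 z2 u : ℕ) (h : dM_27 j z1 z2 u = true) : GdM g H u := by
  unfold dM_27 at h
  rcases brec_true h with h | h
  · exact dM_25_s hy j z1 z2 u h
  · exact dM_26_s hy j z1 z2 u h
theorem dM_28_s (hy : Hy g H) (j z1 z2 u : ℕ) (h : dM_28 j z1 z2 u = true) : GdM g H u := by
  unfold dM_28 at h
  rcases brec_true h with h | h
  · exact dM_24_s hy j z1 z2 u h
  · exact dM_27_s hy j z1 z2 u h
theorem dM_29_s (hy : Hy g H) (j z1 z2 u : ℕ) (h : dM_29 j z1 z2 u = true) : GdM g H u := by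
  unfold dM_29 at h
  rcases brec_true h with h | h
  · exact dM_21_s hy j z1 z2 u h
  · exact dM_28_s hy j z1 z2 u h
theorem dM_30_s (hy : Hy g H) (j z1 z2 u : ℕ) (h : dM_30 j z1 z2 u = true) : GdM g H u := by
  unfold dM_30 at h
  rcases brec_true h with h | h
  · exact dM_14_s hy j z1 z2 u h
  · exact dM_29_s hy j z1 z2 u h
theorem dM_31_s (hy : Hy g H) (j z1 z2 u : ℕ) (h : dM_31 j z1 z2 u = true) : GdM g H u := by
  unfold dM_31 at h
  rcases brec_true h with h | h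
  · exact dM_3_s hy j z1 z2 u h
  · exact dM_30_s hy j z1 z2 u h
theorem dM_32_s (hy : Hy g H) (j z1 z2 u : ℕ) (h : dM_32 j z1 z2 u = true) : GdM g H u := by
  unfold dM_32 at h
  rcases brec_true h with h | h
  · exact dM_2_s hy j z1 z2 u h
  · exact dM_31_s hy j z1 z2 u h
theorem dM_33_s (hy : Hy g H) (j z1 z2 u : ℕ) (h : dM_33 j z1 z2 u = true) : GdM g H u := by
  unfold dM_33 at h
  rcases brec_true h with h | h
  · exact dM_1_s hy j z1 z2 u h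
  · exact dM_32_s hy j z1 z2 u h
theorem dM_34_s (hy : Hy g H) (j z1 z2 u : ℕ) (h : dM_34 j z1 z2 u = true) : GdM g H u := by
  unfold dM_34 at h
  rcases brec_true h with h | h
  · exact dM_0_s hy j z1 z2 u h
  · exact dM_33_s hy j z1 z2 u h
theorem sndM (hy : Hy g H) (u : ℕ) (h : chkM u = true) :
    MG u < A → MG u % M < u ∧ GdM g H u := by
  intro hA
  unfold chkM at h
  cases hb : Nat.ble A (MG u) with
  | true => exact absurd (le_of_ble hb) (by omega)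
  | false =>
    rw [hb] at h
    obtain ⟨h1, h2⟩ := band_eq_true.1 h
    exact ⟨le_of_ble h1, dM_34_s hy _ _ _ _ h2⟩
theorem sndN (hy : Hy g H)
    (u : ℕ) (hu : u < M) (h : chkP u = true) : (∀ x, (T x u < A ∧ Gd g H x u) ∨ (A ≤ T x u ∧ MG u < A)) ∧ (MG u < A → MG u % M < u ∧ GdM g H u) := by
  unfold chkP at h
  cases hb : Nat.ble M u with
  | true => exact absurd (le_of_ble hb) (by omega)
  | false =>
    rw [hb] at h
    change chkN u = true at h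
    unfold chkN at h
    obtain ⟨h0, h⟩ := band_eq_true.1 h
    obtain ⟨h1, h⟩ := band_eq_true.1 h
    obtain ⟨h2, h⟩ := band_eq_true.1 h
    obtain ⟨h3, h⟩ := band_eq_true.1 h
    obtain ⟨h4, h⟩ := band_eq_true.1 h
    obtain ⟨h5, h⟩ := band_eq_true.1 h
    obtain ⟨h6, h⟩ := band_eq_true.1 h
    obtain ⟨h7, h⟩ := band_eq_true.1 h
    obtain ⟨h8, h⟩ := band_eq_true.1 h
    obtain ⟨h9, h⟩ := band_eq_true.1 h
    obtain ⟨h10, h⟩ := band_eq_true.1 h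
    obtain ⟨h11, h⟩ := band_eq_true.1 h
    obtain ⟨h12, h⟩ := band_eq_true.1 h
    obtain ⟨h13, h⟩ := band_eq_true.1 h
    refine ⟨?_, sndM hy u h⟩
    intro x
    cases x
    · exact snc_a hy _ u hu h0
    · exact snc_ai hy _ u hu h1
    · exact snc_b hy _ u hu h2
    · exact snc_bi hy _ u hu h3
    · exact snc_c hy _ u hu h4
    · exact snc_ci hy _ u hu h5
    · exact snc_d hy _ u hu h6
    · exact snc_di hy _ u hu h7
    · exact snc_t hy _ u hu h8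
    · exact snc_ti hy _ u hu h9
    · exact snc_T hy _ u hu h10
    · exact snc_Ti hy _ u hu h11
    · exact snc_z hy _ u hu h12
    · exact snc_zi hy _ u hu h13
theorem final (hinv : ∀ x, g (inv x) = (g x)⁻¹) (hr : ∀ r ∈ rels, (r.map g).prod = 1) (hH : ∀ r ∈ subs, (r.map g).prod ∈ H)
    (hall : ∀ u, u < M → chkP u = true) (hc : cntB liveP 13 0 = 1782) :
    H.relIndex (Subgroup.closure (Set.range g)) ≤ 1782 ∧ H.relIndex (Subgroup.closure (Set.range g)) ≠ 0 := by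
  have hn := fun u hu => sndN ⟨hinv, hr, hH⟩ u hu (hall u hu)
  have h1 : ∀ x u, u < M → T x u < A → Good (fa g) T MG M (cP g H) x u := by
    intro x u hu hx
    rcases (hn u hu).1 x with h | h
    · exact h.2
    · exact absurd h.1 (by omega)
  have h2 : ∀ u, u < M → MG u < A → GoodM (fa g) T MG M (cP g H) u := fun u hu h => ((hn u hu).2 h).2
  refine relIndex_le (M := M) (A := A) (T := T) (MG := MG) (c := cP g H) (by decide) cc_zero (sound_of_good h1 h2) ?_ ?_ ?_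
  · intro u hu h
    exact ((hn u hu).2 h).1
  · intro x u hu h
    rcases (hn u hu).1 x with h' | h'
    · exact h'.1
    · exact absurd h'.2 (by omega)
  · rw [← hc, ← cntB_spec]
    apply Finset.card_le_card
    intro u
    simp only [Finset.mem_filter, Finset.mem_Ico]
    rintro ⟨⟨_, h3⟩, h4⟩
    refine ⟨⟨Nat.zero_le _, lt_of_lt_of_le h3 (by decide)⟩, ?_⟩
    unfold liveP
    cases hb : Nat.ble M u with
    | true => exact absurd (le_of_ble hb) (by omega)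
    | false => exact h4
end
end H35.TCMSzA
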